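import Cfsg.Agent.H883.C7.NIface
import Cfsg.Agent.H734.C7.OpA
import Cfsg.Agent.H883.C7.Slots_mg
import Cfsg.Agent.H883.C7.Irr
set_option linter.all false

-- part: H296/C7/Vec
section
/-!
# One slot: singular lines, partners, skew and symmetric operators
-/

set_option autoImplicit false
set_option linter.unusedSectionVars false
set_option linter.unusedSimpArgs false

namespace Cfsg.Agent.H296.C7

open QuadraticMap hiding proj
open Cfsg.Agent.LieClassical.OrthCore Cfsg.Agent.LieClassical.OrthTrans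
open Cfsg.Agent.H882.Ten Cfsg.Agent.LieClassical.OrthFinite Cfsg.Agent.H883.C7

variable {F : Type*} [Field F] {V : Type*} [AddCommGroup V] [Module F V] {q : QuadraticForm F V}

/-- `E q` is transitive on the singular lines. -/
theorem exists_line (h2 : (2 : F) ≠ 0) (hq : Nondeg q) (hd : 3 ≤ Module.finrank F V) {w b : V}
    (hw : q w = 0) (hw0 : w ≠ 0) (hb : q b = 0) (hb0 : b ≠ 0) :
    ∃ e ∈ E q, ∃ s : F, s ≠ 0 ∧ e w = s • b := by
  by_cases hwb : polar q w b = 0
  · by_cases hc : ∃ c : F, w = c • (b - w)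
    · obtain ⟨c, hc⟩ := hc
      have h1 : (1 + c) • w = c • b := by
        have : (1 + c) • w = w + c • w := by module
        rw [this]
        conv_lhs => rw [hc]
        have h3 : c • (b - w) + c • (c • (b - w)) = c • (b - w) + c • w := by rw [← hc]
        rw [h3]
        module
      have h3 : 1 + c ≠ 0 := by
        intro h
        rw [h, zero_smul] at h1
        rcases smul_eq_zero.1 h1.symm with h4 | h4
        · rw [h4, add_zero] at h
          exact one_ne_zero h
        · exact hb0 h4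
      have h4 : c ≠ 0 := by
        intro h
        rw [h, zero_smul] at h1
        rcases smul_eq_zero.1 h1 with h5 | h5
        · exact h3 (by rw [h]; exact h5)
        · exact hw0 h5
      refine ⟨1, (E q).one_mem, (1 + c)⁻¹ * c, mul_ne_zero (inv_ne_zero h3) h4, ?_⟩
      rw [mul_smul, ← h1, smul_smul, inv_mul_cancel₀ h3, one_smul]
      rfl
    · push Not at hc
      obtain ⟨g, hg, hg1⟩ := exists_siegel_of_orth hq hw hb hwb hc
      exact ⟨g, hg, 1, one_ne_zero, by rw [hg1, one_smul]⟩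
  · -- opposite
    set t := polar q w b with ht
    obtain ⟨w', hw'⟩ : ∃ w', w' = t⁻¹ • b := ⟨_, rfl⟩
    have hyp : Hyp q w w' := ⟨hw, by rw [hw', QuadraticMap.map_smul, hb, smul_zero],
      by rw [hw', polar_smul_right, smul_eq_mul, ← ht, inv_mul_cancel₀ hwb]⟩
    obtain ⟨x, hx1, hx2, hx3⟩ := exists_nonsing_perp hq hd hyp
    have ha : polar q w' (-(q x)⁻¹ • x) = 0 := by rw [polar_smul_right, hx2, smul_zero]
    have hb' : polar q w (-x) = 0 := by rw [polar_neg_right, hx1, neg_zero]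
    refine ⟨siegel q w (-x) hw hb' * siegel q w' (-(q x)⁻¹ • x) hyp.right ha,
      (E q).mul_mem (siegel_mem_E _ _) (siegel_mem_E _ _), -(q x)⁻¹ * t⁻¹,
      mul_ne_zero (neg_ne_zero.2 (inv_ne_zero hx3)) (inv_ne_zero hwb), ?_⟩
    rw [LinearEquiv.mul_apply]
    have e1 : siegel q w' (-(q x)⁻¹ • x) hyp.right ha w = w - (q x)⁻¹ • x - (q x)⁻¹ • w' := by
      rw [siegel_apply, hyp.pair', polar_smul_left, polar_comm q x w, hx1, QuadraticMap.map_smul]
      simp only [smul_eq_mul, mul_zero, zero_smul, sub_zero, one_smul, mul_one]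
      have : -(q x)⁻¹ * -(q x)⁻¹ * q x = (q x)⁻¹ := by field_simp
      rw [this]
      module
    rw [e1, siegel_apply]
    simp only [polar_sub_right, polar_smul_right, hyp.polar_left, hx1, hyp.pair, polar_neg_left,
      polar_comm q x w, polar_self' x, polar_comm q x w', hx2, QuadraticMap.map_neg, smul_eq_mul,
      mul_zero, sub_zero, zero_sub, mul_one, neg_zero, mul_neg, neg_neg, sub_neg_eq_add]
    have e2 : b = t • w' := by rw [hw', smul_smul, mul_inv_cancel₀ hwb, one_smul]
    have e3 : (q x)⁻¹ * (2 * q x) = 2 := by field_simp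
    have e4 : q x * (q x)⁻¹ = 1 := mul_inv_cancel₀ hx3
    have e5 : (-(q x)⁻¹ * t⁻¹) • b = -(q x)⁻¹ • w' := by rw [hw', smul_smul]
    rw [e5]
    linear_combination (norm := skip) (0 : F) • e5
    simp only [e3, e4]
    module

/-- A partner perpendicular to a nonsingular vector. -/
theorem exists_pp (h2 : (2 : F) ≠ 0) (hq : Nondeg q) {u z : V} (hu : q u = 0) (hu0 : u ≠ 0)
    (hz : polar q u z = 0) (hqz : q z ≠ 0) : ∃ b, Hyp q u b ∧ polar q z b = 0 := by
  obtain ⟨b0, hb0⟩ := LieClassical.OrthTrans.exists_hyp hq hu hu0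
  set c := (2 * q z)⁻¹ * polar q z b0 with hc
  have h2z : (2 * q z) ≠ 0 := mul_ne_zero h2 hqz
  set b1 := b0 - c • z with hb1
  have h1 : polar q z b1 = 0 := by
    rw [hb1, polar_sub_right, polar_smul_right, polar_self', hc, smul_eq_mul]
    field_simp
    ring
  have h3 : polar q u b1 = 1 := by
    rw [hb1, polar_sub_right, polar_smul_right, hz, hb0.pair, smul_zero, sub_zero]
  refine ⟨b1 - q b1 • u, ⟨hu, ?_, ?_⟩, ?_⟩
  · rw [sub_eq_add_neg, ← neg_smul, Q_add, QuadraticMap.map_smul, hu, polar_smul_right,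
      polar_comm q b1 u, h3]
    simp
  · rw [polar_sub_right, polar_smul_right, polar_self_of_sing hu, h3, smul_zero, sub_zero]
  · rw [polar_sub_right, polar_smul_right, polar_comm q z u, hz, h1, smul_zero, sub_zero]

/-! ### symmetric and skew operators -/

/-- symmetric -/
def Sy (q : QuadraticForm F V) (f : Module.End F V) : Prop := ∀ x y, polar q x (f y) = polar q (f x) y

/-- skew -/
def Sk (q : QuadraticForm F V) (f : Module.End F V) : Prop := ∀ x y, polar q x (f y) = - polar q (f x) y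

theorem sy_om (u : V) : Sy q (om q u) := by
  intro x y
  rw [om_apply, om_apply, polar_smul_right, polar_smul_left, polar_comm q x u, smul_eq_mul, smul_eq_mul,
    mul_comm]

theorem sk_nn (u z : V) : Sk q (nn q u z) := by
  intro x y
  rw [nn_apply, nn_apply]
  simp only [polar_sub_right, polar_smul_right, polar_sub_left, polar_smul_left, smul_eq_mul,
    polar_comm q x z, polar_comm q x u]
  ring

theorem Sk.self (h2 : (2 : F) ≠ 0) {f : Module.End F V} (hf : Sk q f) (x : V) : polar q x (f x) = 0 := by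
  have h1 := hf x x
  rw [polar_comm q (f x) x] at h1
  have h3 : 2 * polar q x (f x) = 0 := by linear_combination h1
  exact (mul_eq_zero.1 h3).resolve_left h2

theorem Sy.mul_comm' {f g : Module.End F V} (hf : Sy q f) (hg : Sy q g) (u : V) :
    polar q u (g (f u)) = polar q u (f (g u)) := by
  rw [hf, hg, polar_comm]

theorem Sk.mul_comm' {f g : Module.End F V} (hf : Sk q f) (hg : Sk q g) (u : V) :
    polar q u (g (f u)) = polar q u (f (g u)) := by
  rw [hf, hg, polar_comm]

theorem Sk.mul_anti {f g : Module.End F V} (hf : Sk q f) (hg : Sy q g) (u : V) :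
    polar q u (g (f u)) = - polar q u (f (g u)) := by
  rw [hf, hg, polar_comm, neg_neg]

/-! ### calculus of `om` and `nn` -/

theorem cj_om {e : V ≃ₗ[F] V} (he : e ∈ O q) (w : V) : cj e (om q w) = om q (e w) := by
  refine LinearMap.ext fun v => ?_
  rw [cj_apply, om_apply, om_apply, map_smul]
  have h1 : polar q w (e⁻¹ v) = polar q (e w) v := by
    rw [← polar_map he w (e⁻¹ v)]
    congr 1
    exact LinearEquiv.apply_symm_apply e v
  rw [h1]

theorem cj_nn {e : V ≃ₗ[F] V} (he : e ∈ O q) (w z : V) : cj e (nn q w z) = nn q (e w) (e z) := by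
  refine LinearMap.ext fun v => ?_
  have h1 : ∀ w, polar q w (e⁻¹ v) = polar q (e w) v := by
    intro w
    rw [← polar_map he w (e⁻¹ v)]
    congr 1
    exact LinearEquiv.apply_symm_apply e v
  rw [cj_apply, nn_apply, nn_apply, map_sub, map_smul, map_smul, h1, h1]

theorem nn_smul_right (u z : V) (c : F) : nn q u (c • z) = c • nn q u z := by
  refine LinearMap.ext fun v => ?_
  rw [LinearMap.smul_apply, nn_apply, nn_apply, polar_smul_left, smul_eq_mul]
  module

theorem nn_smul_left (u z : V) (c : F) : nn q (c • u) z = c • nn q u z := by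
  refine LinearMap.ext fun v => ?_
  rw [LinearMap.smul_apply, nn_apply, nn_apply, polar_smul_left, smul_eq_mul]
  module

/-- `ω_u f ω_u = B(u, f u) ω_u` -/
theorem om_mul_om (u : V) (f : Module.End F V) : om q u * f * om q u = polar q u (f u) • om q u := by
  refine LinearMap.ext fun v => ?_
  rw [Module.End.mul_apply, Module.End.mul_apply, LinearMap.smul_apply, om_apply, om_apply, map_smul,
    polar_smul_right, smul_eq_mul, smul_smul, mul_comm]

theorem om_nn_hyp {w w' : V} (h : Hyp q w w') : om q w * nn q w w' = om q w := by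
  refine LinearMap.ext fun v => ?_
  rw [Module.End.mul_apply, om_apply, nn_apply, polar_sub_right, polar_smul_right, polar_smul_right, h.pair,
    h.polar_left, om_apply]
  simp

theorem nn_om_hyp {w w' : V} (h : Hyp q w w') : nn q w w' * om q w = (-1 : F) • om q w := by
  refine LinearMap.ext fun v => ?_
  rw [Module.End.mul_apply, om_apply, map_smul, nn_apply, h.polar_left, h.pair', LinearMap.smul_apply, om_apply]
  module

/-- `[u ∧ z, u ∧ u'] = u ∧ z` for a partner `u' ⊥ z` -/
theorem nn_comm_hyp {u z u' : V} (h : Hyp q u u') (hz : polar q u z = 0) (hz' : polar q z u' = 0) :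
    nn q u z * nn q u u' + (-1 : F) • (nn q u u' * nn q u z) = nn q u z := by
  refine LinearMap.ext fun v => ?_
  simp only [LinearMap.add_apply, LinearMap.smul_apply, Module.End.mul_apply, nn_apply, map_sub, map_smul, h.polar_left, h.pair, h.pair',
    hz, hz', polar_comm q u' z, polar_comm q z u, polar_sub_right, polar_smul_right, smul_eq_mul]
  module

/-! ### non-vanishing -/

theorem nv_om (h2 : (2 : F) ≠ 0) (hq : Nondeg q) (hd : 3 ≤ Module.finrank F V) {v : V}
    (hv : q v = 0) (hv0 : v ≠ 0) :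
    ∃ e ∈ E q, ∃ u, u ≠ 0 ∧ q u = 0 ∧ polar q u (om q v (cj e (om q v) u)) ≠ 0 := by
  obtain ⟨b, hyp⟩ := LieClassical.OrthTrans.exists_hyp hq hv hv0
  obtain ⟨x, hx1, hx2, hx3⟩ := exists_nonsing_perp hq hd hyp
  have hx2' : polar q b (-x) = 0 := by rw [polar_neg_right, hx2, neg_zero]
  have hO := siegel_mem_O hyp.right hx2
  have hO' := siegel_mem_O hyp.right hx2'
  refine ⟨siegel q b x hyp.right hx2, siegel_mem_E _ _, siegel q b (-x) hyp.right hx2' v, ?_, ?_, ?_⟩
  · intro h
    exact hv0 ((map_eq_zero_iff _ (siegel q b (-x) hyp.right hx2').injective).1 h)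
  · rw [hO', hv]
  · rw [cj_om hO]
    have e1 : siegel q b x hyp.right hx2 v = v + x - q x • b := by
      rw [siegel_apply, hyp.pair', polar_comm q x v, hx1]
      module
    have e2 : siegel q b (-x) hyp.right hx2' v = v - x - q x • b := by
      rw [siegel_apply, hyp.pair', polar_neg_left, polar_comm q x v, hx1, QuadraticMap.map_neg]
      module
    rw [e1, e2, om_apply, om_apply]
    simp only [polar_smul_right, polar_add_right, polar_sub_right, polar_add_left, polar_sub_left,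
      polar_smul_left, hyp.polar_left, hyp.polar_right, hyp.pair, hyp.pair', hx1, hx2, polar_comm q x v,
      polar_comm q x b, polar_self' x, smul_eq_mul]
    have h4 : (4 : F) ≠ 0 := by
      have : (4 : F) = 2 * 2 := by norm_num
      rw [this]
      exact mul_ne_zero h2 h2
    have : (-(4 * (q x * q x * q x)) : F) ≠ 0 := neg_ne_zero.2 (mul_ne_zero h4 (mul_ne_zero (mul_ne_zero hx3 hx3) hx3))
    intro h
    apply this
    rw [← h]
    ring

theorem nv_nn (h2 : (2 : F) ≠ 0) (hq : Nondeg q) {u z : V}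
    (hu : q u = 0) (hu0 : u ≠ 0) (hz : polar q u z = 0) (hqz : q z ≠ 0) :
    ∃ e ∈ E q, ∃ b, b ≠ 0 ∧ q b = 0 ∧ polar q b (nn q u z (cj e (nn q u z) b)) ≠ 0 := by
  obtain ⟨b, hyp, hb⟩ := exists_pp h2 hq hu hu0 hz hqz
  refine ⟨1, (E q).one_mem, b, hyp.right_ne, hyp.right, ?_⟩
  have h1 : cj (1 : V ≃ₗ[F] V) (nn q u z) = nn q u z := one_cj _
  rw [h1, ← Module.End.mul_apply, nn_sq hu hz, LinearMap.smul_apply, om_apply, hyp.pair, one_smul,
    polar_smul_right, hyp.pair', smul_eq_mul, mul_one]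
  exact neg_ne_zero.2 (mul_ne_zero h2 hqz)

theorem nv_mix (h2 : (2 : F) ≠ 0) (hq : Nondeg q) (hd : 3 ≤ Module.finrank F V) {u z w : V}
    (hu : q u = 0) (hu0 : u ≠ 0) (hz : polar q u z = 0) (hqz : q z ≠ 0) (hw : q w = 0) (hw0 : w ≠ 0) :
    ∃ e ∈ E q, ∃ y, y ≠ 0 ∧ q y = 0 ∧ polar q y (nn q u z (cj e (om q w) y)) ≠ 0 := by
  obtain ⟨b, hyp, hb⟩ := exists_pp h2 hq hu hu0 hz hqz
  obtain ⟨e, he, s, hs, hes⟩ := exists_line h2 hq hd hw hw0 hyp.right hyp.right_ne
  have hbz : polar q b z = 0 := by rw [polar_comm]; exact hb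
  have hO := siegel_mem_O hyp.right hbz
  refine ⟨e, he, siegel q b z hyp.right hbz u, ?_, ?_, ?_⟩
  · intro h
    exact hu0 ((map_eq_zero_iff _ (siegel q b z hyp.right hbz).injective).1 h)
  · rw [hO, hu]
  · rw [cj_om (E_le_O he), hes]
    have e1 : siegel q b z hyp.right hbz u = u + z - q z • b := by
      rw [siegel_apply, hyp.pair', polar_comm q z u, hz]
      module
    rw [e1, om_apply, map_smul, map_smul, nn_apply]
    simp only [polar_smul_right, polar_add_right, polar_sub_right, polar_add_left, polar_sub_left,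
      polar_smul_left, hyp.polar_left, hyp.polar_right, hyp.pair, hyp.pair', hz, hb, hbz, polar_comm q z u,
      polar_self' z, smul_eq_mul]
    have : (s * s * (2 * q z) : F) ≠ 0 := mul_ne_zero (mul_ne_zero hs hs) (mul_ne_zero h2 hqz)
    intro h
    apply this
    rw [← h]
    ring

/-- Lemma T. -/
theorem lemT (h2 : (2 : F) ≠ 0) (hq : Nondeg q) (hd : 3 ≤ Module.finrank F V)
    {Z : AddSubgroup (Module.End F V)} (hZ : ∀ e ∈ E q, ∀ f ∈ Z, cj e f ∈ Z) {u z : V}
    (hu : q u = 0) (hu0 : u ≠ 0) (hz : polar q u z = 0) (hqz : q z ≠ 0) (h : nn q u z ∈ Z)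
    {w w' : V} (hyp : Hyp q w w') : ∃ r : F, r ≠ 0 ∧ r • nn q w w' ∈ Z := by
  obtain ⟨b, hub, hb⟩ := exists_pp h2 hq hu hu0 hz hqz
  have hbz : polar q b z = 0 := by rw [polar_comm]; exact hb
  have hbz' : polar q b (-z) = 0 := by rw [polar_neg_right, hbz, neg_zero]
  have h4 : (4 : F) ≠ 0 := by
    have : (4 : F) = 2 * 2 := by norm_num
    rw [this]
    exact mul_ne_zero h2 h2
  have h1 : (-(4 * q z)) • nn q u b ∈ Z := by
    have m1 := hZ _ (siegel_mem_E hub.right hbz) _ h
    have m2 := hZ _ (siegel_mem_E hub.right hbz') _ h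
    have m3 := Z.sub_mem m1 m2
    rw [cj_nn (siegel_mem_O hub.right hbz), cj_nn (siegel_mem_O hub.right hbz')] at m3
    convert m3 using 1
    refine LinearMap.ext fun v => ?_
    simp only [siegel_apply, QuadraticMap.map_neg, polar_neg_left, polar_self' z, hub.pair', hbz,
      polar_comm q z u, hz, LinearMap.sub_apply, LinearMap.smul_apply, nn_apply, polar_add_left, polar_sub_left,
      polar_smul_left, smul_eq_mul]
    module
  obtain ⟨e, he, s, hs, hes⟩ := exists_line h2 hq hd hu hu0 hyp.left hyp.left_ne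
  have h3 := hZ e he _ h1
  have hyp2 : Hyp q w (s • e b) := by
    refine ⟨hyp.left, ?_, ?_⟩
    · rw [QuadraticMap.map_smul, (hub.map (E_le_O he)).right, smul_zero]
    · have h5 := (hub.map (E_le_O he)).pair
      rw [hes, polar_smul_left, smul_eq_mul] at h5
      rw [polar_smul_right, smul_eq_mul]
      exact h5
  obtain ⟨g, hg, hg1, hg2⟩ := siegel_partner hyp2 hyp
  have h5 := hZ g hg _ h3
  refine ⟨-(4 * q z), neg_ne_zero.2 (mul_ne_zero h4 hqz), ?_⟩
  have e1 : cj g (cj e ((-(4 * q z)) • nn q u b)) = (-(4 * q z)) • nn q w w' := by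
    rw [cj_smul', cj_smul', cj_nn (E_le_O he), cj_nn (E_le_O hg), hes]
    congr 1
    rw [map_smul, hg1, nn_smul_left, ← nn_smul_right, ← map_smul, hg2]
  rw [← e1]
  exact h5

end Cfsg.Agent.H296.C7
end

-- part: H296/C7/Slots
section
/-!
# Operators on the tensor power: commutators of pure elements and the slot operators
-/

set_option autoImplicit false
set_option linter.unusedSectionVars false
set_option linter.unusedSimpArgs false

namespace Cfsg.Agent.H296.C7

open QuadraticMap hiding proj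
open Cfsg.Agent.LieClassical.OrthCore Cfsg.Agent.LieClassical.OrthTrans
open Cfsg.Agent.H882.Ten Cfsg.Agent.LieClassical.OrthFinite Cfsg.Agent.H883.C7

variable {F : Type*} [Field F] {κ : Type*} [Fintype κ] [DecidableEq κ] {ι : Type*} [Fintype ι] [DecidableEq ι]
  {q : QuadraticForm F (κ → F)} {M : Subgroup (((ι → κ) → F) ≃ₗ[F] ((ι → κ) → F))}

/-! ### `1 + T ∈ M` -/

theorem PX_zero : PX M 0 := ⟨1, M.one_mem, fun v => by simp⟩

theorem PX_add {T T' : Module.End F ((ι → κ) → F)} (hT : PX M T) (hT' : PX M T') (h : T * T' = 0) :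
    PX M (T + T') := by
  obtain ⟨g, hg, h1⟩ := hT
  obtain ⟨g', hg', h1'⟩ := hT'
  refine ⟨g * g', M.mul_mem hg hg', fun v => ?_⟩
  have h3 : T (T' v) = 0 := LinearMap.congr_fun h v
  rw [LinearEquiv.mul_apply, h1', h1, map_add, h3, LinearMap.add_apply]
  abel

theorem PX_neg {T : Module.End F ((ι → κ) → F)} (hT : PX M T) (h : T * T = 0) : PX M (-T) := by
  obtain ⟨g, hg, h1⟩ := hT
  refine ⟨g⁻¹, M.inv_mem hg, fun v => ?_⟩
  have h3 : T (T v) = 0 := LinearMap.congr_fun h v
  have h4 : g (v + (-T) v) = v := by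
    rw [h1, LinearMap.neg_apply, map_add, map_neg, h3]
    abel
  conv_lhs => rw [← h4]
  exact LinearEquiv.symm_apply_apply g _

theorem PX_cj {T : Module.End F ((ι → κ) → F)} (hT : PX M T) {k : ((ι → κ) → F) ≃ₗ[F] ((ι → κ) → F)}
    (hk : k ∈ M) : PX M (cj k T) := by
  obtain ⟨g, hg, h1⟩ := hT
  refine ⟨k * g * k⁻¹, M.mul_mem (M.mul_mem hk hg) (M.inv_mem hk), fun v => ?_⟩
  rw [LinearEquiv.mul_apply, LinearEquiv.mul_apply, h1, map_add, cj_apply]
  congr 1
  exact LinearEquiv.apply_symm_apply k v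

theorem PX_comm {T T' : Module.End F ((ι → κ) → F)} (hT : PX M T) (hT' : PX M T') (h1 : T * T = 0)
    (h2 : T' * T' = 0) (h3 : T * T' * T = 0) (h4 : T' * T * T' = 0) : PX M (T * T' - T' * T) := by
  obtain ⟨g, hg, hv⟩ := hT
  obtain ⟨g', hg', hv'⟩ := hT'
  obtain ⟨k, hk, kv⟩ := PX_neg ⟨g, hg, hv⟩ h1
  obtain ⟨k', hk', kv'⟩ := PX_neg ⟨g', hg', hv'⟩ h2
  refine ⟨g * g' * (k * k'), M.mul_mem (M.mul_mem hg hg') (M.mul_mem hk hk'), fun v => ?_⟩
  have h5 : T * T' * T' = 0 := by rw [mul_assoc, h2, mul_zero]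
  have key : (1 + T) * (1 + T') * ((1 - T) * (1 - T')) = 1 + (T * T' - T' * T) := by
    simp only [mul_add, add_mul, mul_sub, sub_mul, one_mul, mul_one, ← mul_assoc, h1, h3, h4, h5, h2, zero_mul]
    abel
  have h6 := LinearMap.congr_fun key v
  simp only [LinearEquiv.mul_apply, hv, hv', kv, kv']
  simp only [Module.End.mul_apply, LinearMap.add_apply, LinearMap.sub_apply, Module.End.one_apply] at h6
  simp only [LinearMap.neg_apply, LinearMap.sub_apply, Module.End.mul_apply]
  rw [← sub_eq_add_neg, ← sub_eq_add_neg]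
  exact h6

/-! ### pure operators -/

theorem op_eq_zero {f : ι → Module.End F (κ → F)} {l : ι} (h : f l = 0) : op f = 0 := by
  have : f = Function.update f l ((0 : F) • f l) := by
    rw [zero_smul]
    conv_rhs => rw [← h]
    rw [Function.update_eq_self]
  rw [this, op_update_smul, zero_smul]

theorem op_smul_all (a : ι → F) (f : ι → Module.End F (κ → F)) :
    op (fun l => a l • f l) = (∏ l, a l) • op f := by
  refine tp_ext fun x => ?_
  rw [LinearMap.smul_apply, op_tp, op_tp, ← tp_smul_all]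
  rfl

theorem op_mul_sl (f : ι → Module.End F (κ → F)) (i : ι) (g : Module.End F (κ → F)) :
    op f * sl i g = op (Function.update f i (f i * g)) := by
  rw [sl, ← op_mul]
  congr 1
  funext j
  by_cases h : j = i
  · subst h; rw [Function.update_self, Function.update_self]
  · rw [Function.update_of_ne h, Function.update_of_ne h, mul_one]

theorem sl_mul_op (f : ι → Module.End F (κ → F)) (i : ι) (g : Module.End F (κ → F)) :
    sl i g * op f = op (Function.update f i (g * f i)) := by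
  rw [sl, ← op_mul]
  congr 1
  funext j
  by_cases h : j = i
  · subst h; rw [Function.update_self, Function.update_self]
  · rw [Function.update_of_ne h, Function.update_of_ne h, one_mul]

theorem op_comm_sl {f : ι → Module.End F (κ → F)} {i : ι} {a : F} (h : f i = a • 1) (g : Module.End F (κ → F)) :
    op f * sl i g = sl i g * op f := by
  rw [op_mul_sl, sl_mul_op, h, smul_mul_assoc, mul_smul_comm, one_mul, mul_one]

theorem cj_opE_op (e : ι → ((κ → F) ≃ₗ[F] (κ → F))) (c : ι → Module.End F (κ → F)) :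
    cj (opE e) (op c) = op (fun l => cj (e l) (c l)) := by
  refine tp_ext fun x => ?_
  rw [cj_apply, ← map_inv, opE_tp, op_tp, opE_tp, op_tp]
  rfl

theorem cj_pe_op (σ : Equiv.Perm ι) (c : ι → Module.End F (κ → F)) :
    cj (pe σ) (op c) = op (fun l => c (σ⁻¹ l)) := by
  refine tp_ext fun x => ?_
  rw [cj_apply, ← map_inv, pe_tp, op_tp, pe_tp, op_tp]
  congr 1
  funext l
  congr 2
  rw [inv_inv]
  exact σ.apply_symm_apply l

theorem cj_slE_sl {i l : ι} (h : l ≠ i) (e : (κ → F) ≃ₗ[F] (κ → F)) (f : Module.End F (κ → F)) :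
    cj (slE l e) (sl i f) = sl i f := by
  rw [cj_eq_iff, slE_toEnd, sl_comm h]

theorem cj_slE_op (l : ι) (e : (κ → F) ≃ₗ[F] (κ → F)) (c : ι → Module.End F (κ → F)) (f : Module.End F (κ → F)) :
    cj (slE l e) (op (Function.update c l f)) = op (Function.update c l (cj e f)) := by
  rw [slE_eq, cj_opE_op]
  congr 1
  funext j
  by_cases h : j = l
  · subst h; rw [Pi.mulSingle_eq_same, Function.update_self, Function.update_self]
  · rw [Pi.mulSingle_eq_of_ne h, Function.update_of_ne h, Function.update_of_ne h, one_cj]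

/-! ### elements of `M` -/

theorem opE_mem (h2 : (2 : F) ≠ 0) (hG : Good (QT q ι)) (hM : Over q M) {e : ι → ((κ → F) ≃ₗ[F] (κ → F))}
    (he : ∀ l, e l ∈ E q) : opE e ∈ M := by
  refine hM.2 _ ?_ ⟨e, 1, by rw [map_one, mul_one]⟩
  have h1 : Subgroup.pi Set.univ (fun _ : ι => E q) ≤ (E (QT q ι)).comap (opE (F := F) (κ := κ) (ι := ι)) := by
    rw [Subgroup.pi_le_iff]
    rintro l _ ⟨x, hx, rfl⟩
    exact slE_mem_E h2 hG l hx
  exact h1 (fun l _ => he l)

theorem slE_mem (h2 : (2 : F) ≠ 0) (hG : Good (QT q ι)) (hM : Over q M) (l : ι) {e : (κ → F) ≃ₗ[F] (κ → F)}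
    (he : e ∈ E q) : slE l e ∈ M :=
  hM.2 _ (slE_mem_E h2 hG l he) ⟨Pi.mulSingle l e, 1, by rw [map_one, mul_one, slE_eq]⟩

theorem pe_mem (h2 : (2 : F) ≠ 0) (hG : Good (QT q ι)) (hM : Over q M) (σ : Equiv.Perm ι) : pe (σ * σ) ∈ M :=
  hM.2 _ (pe_sq_mem_E h2 hG σ) ⟨1, σ * σ, by rw [map_one, one_mul]⟩

/-! ### the additive group attached to a slot with `ω_w` -/

/-- The elements `T' * ω_w` (slot `i`) with `1 + T' ω_w ∈ M`. -/
def Zc (M : Subgroup (((ι → κ) → F) ≃ₗ[F] ((ι → κ) → F))) (i : ι) {w : κ → F} (hw : q w = 0) :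
    AddSubgroup (Module.End F ((ι → κ) → F)) where
  carrier := {T | PX M T ∧ ∃ T', T = T' * sl i (om q w) ∧ ∀ f, T' * sl i f = sl i f * T'}
  zero_mem' := ⟨PX_zero, 0, by rw [zero_mul], fun f => by rw [zero_mul, mul_zero]⟩
  add_mem' := by
    rintro _ _ ⟨h1, T1, rfl, c1⟩ ⟨h2, T2, rfl, c2⟩
    refine ⟨PX_add h1 h2 ?_, T1 + T2, by rw [add_mul], fun f => by rw [add_mul, mul_add, c1, c2]⟩
    rw [mul_assoc, c2, ← mul_assoc (sl i _) (sl i _), ← sl_mul, om_om hw, ← slA_apply, map_zero, zero_mul, mul_zero]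
  neg_mem' := by
    rintro _ ⟨h1, T1, rfl, c1⟩
    refine ⟨PX_neg h1 ?_, -T1, LinearMap.ext fun v => rfl, fun f => LinearMap.ext fun v => ?_⟩
    swap
    · have h3 : T1 (sl i f v) = sl i f (T1 v) := LinearMap.congr_fun (c1 f) v
      show -(T1 (sl i f v)) = sl i f (-(T1 v))
      rw [h3, map_neg]
    rw [mul_assoc, c1, ← mul_assoc (sl i _) (sl i _), ← sl_mul, om_om hw, ← slA_apply, map_zero, zero_mul, mul_zero]

theorem Zc_cj {i : ι} {w : κ → F} (hw : q w = 0) {l : ι} (h : l ≠ i) {e : (κ → F) ≃ₗ[F] (κ → F)}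
    (he : slE l e ∈ M) {T : Module.End F ((ι → κ) → F)} (hT : T ∈ Zc M i hw) : cj (slE l e) T ∈ Zc M i hw := by
  obtain ⟨h1, T1, rfl, c1⟩ := hT
  refine ⟨PX_cj h1 he, cj (slE l e) T1, ?_, fun f => ?_⟩
  · rw [cj_mul', cj_slE_sl h]
  · have h3 := congrArg (cj (slE l e)) (c1 f)
    rw [cj_mul', cj_mul', cj_slE_sl h] at h3
    exact h3

/-! ### the slot operators -/

/-- The slot operators (proved as `opA`). -/
def OpA (q : QuadraticForm F (κ → F)) (ι : Type*) [Fintype ι] [DecidableEq ι] : Prop :=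
  ∀ (u : κ → F) (hu : q u = 0), u ≠ 0 → ∃ r : F, r ≠ 0 ∧ ∀ (l : ι) (Z : AddSubgroup (Module.End F ((ι → κ) → F))),
      (∀ (y : κ → F) (hy : polar q u y = 0), ∀ T ∈ Z, cj (slE l (siegel q u y hu hy)) T ∈ Z) →
      ∀ T ∈ Z, r • (sl l (om q u) * T * sl l (om q u)) ∈ Z

/-- `ω_{u l}` in the slots of `S`. -/
noncomputable def opS (q : QuadraticForm F (κ → F)) (S : Finset ι) (u : ι → (κ → F)) : Module.End F ((ι → κ) → F) :=
  op (fun l => if l ∈ S then om q (u l) else 1)

theorem opAll (hA : OpA q ι) (S : Finset ι) {u : ι → (κ → F)} (hu : ∀ l ∈ S, q (u l) = 0 ∧ u l ≠ 0) :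
    ∃ r : F, r ≠ 0 ∧ ∀ (Z : AddSubgroup (Module.End F ((ι → κ) → F))),
      (∀ l ∈ S, ∀ (h : q (u l) = 0) (y : κ → F) (hy : polar q (u l) y = 0), ∀ T ∈ Z,
        cj (slE l (siegel q (u l) y h hy)) T ∈ Z) →
      ∀ T ∈ Z, r • (opS q S u * T * opS q S u) ∈ Z := by
  induction S using Finset.induction_on with
  | empty =>
    refine ⟨1, one_ne_zero, fun Z _ T hT => ?_⟩
    have : opS q (∅ : Finset ι) u = 1 := by
      rw [opS]
      simp only [Finset.notMem_empty, if_false, op_one]
    rw [this, one_mul, mul_one, one_smul]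
    exact hT
  | insert l S hl ih =>
    obtain ⟨r, hr, h1⟩ := ih fun j hj => hu j (Finset.mem_insert_of_mem hj)
    obtain ⟨hl1, hl2⟩ := hu l (Finset.mem_insert_self _ _)
    obtain ⟨r', hr', h3⟩ := hA (u l) hl1 hl2
    refine ⟨r' * r, mul_ne_zero hr' hr, fun Z hZ T hT => ?_⟩
    have h4 := h3 l Z (fun y hy T hT => hZ l (Finset.mem_insert_self _ _) hl1 y hy T hT) _
      (h1 Z (fun j hj => hZ j (Finset.mem_insert_of_mem hj)) T hT)
    have hf : Function.update (fun j => if j ∈ S then om q (u j) else 1) l (om q (u l)) =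
        fun j => if j ∈ insert l S then om q (u j) else 1 := by
      funext j
      by_cases hj : j = l
      · subst hj
        rw [Function.update_self, if_pos (Finset.mem_insert_self _ _)]
      · rw [Function.update_of_ne hj]
        by_cases hjS : j ∈ S
        · rw [if_pos hjS, if_pos (Finset.mem_insert_of_mem hjS)]
        · rw [if_neg hjS, if_neg]
          intro h
          rcases Finset.mem_insert.1 h with h | h
          · exact hj h
          · exact hjS h
    have e1 : sl l (om q (u l)) * opS q S u = opS q (insert l S) u := by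
      rw [opS, sl_mul_op, if_neg hl, mul_one, hf, opS]
    have e2 : opS q S u * sl l (om q (u l)) = opS q (insert l S) u := by
      rw [opS, op_mul_sl, if_neg hl, one_mul, hf, opS]
    have e3 : r' • (sl l (om q (u l)) * r • (opS q S u * T * opS q S u) * sl l (om q (u l))) =
        (r' * r) • (opS q (insert l S) u * T * opS q (insert l S) u) := by
      rw [mul_smul_comm, smul_mul_assoc, smul_smul, ← mul_assoc, ← mul_assoc, e1, mul_assoc _ (opS q S u), e2]
    rw [← e3]
    exact h4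

theorem opS_op (S : Finset ι) (u : ι → (κ → F)) (c : ι → Module.End F (κ → F)) :
    opS q S u * op c * opS q S u =
      (∏ l ∈ S, polar q (u l) (c l (u l))) • op (fun l => if l ∈ S then om q (u l) else c l) := by
  have h1 : ∏ l ∈ S, polar q (u l) (c l (u l)) = ∏ l, if l ∈ S then polar q (u l) (c l (u l)) else 1 := by
    rw [Finset.prod_ite_mem, Finset.univ_inter]
  rw [h1, ← op_smul_all, opS, ← op_mul, ← op_mul]
  congr 1
  funext l
  by_cases hl : l ∈ S
  · simp only [if_pos hl]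
    rw [om_mul_om]
  · simp only [if_neg hl, one_mul, mul_one, one_smul]

/-- **The basic step.** -/
theorem core (hA : OpA q ι) (h2 : (2 : F) ≠ 0) (hG : Good (QT q ι)) (hM : Over q M)
    {c c' : ι → Module.End F (κ → F)} (hP : PX M (op c)) (hP' : PX M (op c')) {i j : ι}
    {w w' : κ → F} (hw : q w = 0) (hw' : q w' = 0) (hci : c i = om q w) (hcj : c' j = om q w')
    (hsk : Sk q (c j)) (hmid : om q w * c' i * om q w = 0) {a b : F} (ha : c i * c' i = a • om q w)
    (hb : c' i * c i = b • om q w) {S : Finset ι} (hiS : i ∉ S) (hjS : j ∈ S) {u : ι → (κ → F)}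
    (hu : ∀ l ∈ S, q (u l) = 0 ∧ u l ≠ 0) (hne : ∀ l ∈ S, polar q (u l) (c l (c' l (u l))) ≠ 0)
    (hsym : ∀ l ∈ S, l ≠ j → polar q (u l) (c' l (c l (u l))) = polar q (u l) (c l (c' l (u l)))) :
    ∃ s : F, s ≠ 0 ∧ PX M (s • (op (fun l => if l ∈ S then om q (u l) else c l * c' l) +
      op (fun l => if l ∈ S then om q (u l) else c' l * c l))) := by
  have t1 : op c * op c = 0 := by
    rw [← op_mul]
    exact op_eq_zero (l := i) (by rw [hci, om_om hw])
  have t2 : op c' * op c' = 0 := by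
    rw [← op_mul]
    exact op_eq_zero (l := j) (by rw [hcj, om_om hw'])
  have t3 : op c * op c' * op c = 0 := by
    rw [← op_mul, ← op_mul]
    exact op_eq_zero (l := i) (by rw [hci, hmid])
  have t4 : op c' * op c * op c' = 0 := by
    rw [← op_mul, ← op_mul]
    exact op_eq_zero (l := j) (by rw [hcj, om_mul_om, hsk.self h2, zero_smul])
  have h1 := PX_comm hP hP' t1 t2 t3 t4
  rw [← op_mul, ← op_mul] at h1
  have hZ : op (fun l => c l * c' l) - op (fun l => c' l * c l) ∈ Zc M i hw := by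
    refine ⟨h1, op (Function.update (fun l => c l * c' l) i (a • 1)) -
      op (Function.update (fun l => c' l * c l) i (b • 1)), ?_, fun f => ?_⟩
    · rw [sub_mul, op_mul_sl, op_mul_sl, Function.update_self, Function.update_self, Function.update_idem,
        Function.update_idem, smul_mul_assoc, smul_mul_assoc, one_mul, ← ha, ← hb, Function.update_eq_self,
        Function.update_eq_self]
    · rw [sub_mul, mul_sub, op_comm_sl (a := a) (Function.update_self ..),
        op_comm_sl (a := b) (Function.update_self ..)]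
  obtain ⟨r, hr, hr'⟩ := opAll hA S hu
  have h3 := (hr' (Zc M i hw) (fun l hl h y hy T hT =>
    Zc_cj hw (fun h' : l = i => hiS (h' ▸ hl)) (slE_mem h2 hG hM l (siegel_mem_E h hy)) hT) _ hZ).1
  rw [mul_sub, sub_mul, opS_op, opS_op] at h3
  have hAB : ∏ l ∈ S, polar q (u l) ((c' l * c l) (u l)) = -∏ l ∈ S, polar q (u l) ((c l * c' l) (u l)) := by
    rw [← Finset.mul_prod_erase S _ hjS, ← Finset.mul_prod_erase S (fun l => polar q (u l) ((c l * c' l) (u l))) hjS]
    have e1 : polar q (u j) ((c' j * c j) (u j)) = -polar q (u j) ((c j * c' j) (u j)) := by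
      have : Sy q (c' j) := by rw [hcj]; exact sy_om _
      exact hsk.mul_anti this _
    rw [e1, neg_mul]
    congr 2
    refine Finset.prod_congr rfl fun l hl => ?_
    exact hsym l (Finset.mem_of_mem_erase hl) (Finset.ne_of_mem_erase hl)
  rw [hAB] at h3
  refine ⟨r * ∏ l ∈ S, polar q (u l) ((c l * c' l) (u l)), mul_ne_zero hr
    (Finset.prod_ne_zero_iff.2 fun l hl => hne l hl), ?_⟩
  convert h3 using 1
  module

end Cfsg.Agent.H296.C7
end

-- part: H296/C7/RootOf
section
/-!
# From a pure element to a root element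
-/

set_option autoImplicit false
set_option linter.unusedSectionVars false
set_option linter.unusedSimpArgs false

namespace Cfsg.Agent.H296.C7

open QuadraticMap hiding proj
open Cfsg.Agent.LieClassical.OrthCore Cfsg.Agent.LieClassical.OrthTrans
open Cfsg.Agent.H882.Ten Cfsg.Agent.LieClassical.OrthFinite Cfsg.Agent.H883.C7

variable {F : Type*} [Field F] {κ : Type*} [Fintype κ] [DecidableEq κ] {ι : Type*} [Fintype ι] [DecidableEq ι]
  {q : QuadraticForm F (κ → F)} {M : Subgroup (((ι → κ) → F) ≃ₗ[F] ((ι → κ) → F))}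

theorem om_ne_one {u : κ → F} (hu : q u = 0) (hu0 : u ≠ 0) : om q u ≠ 1 := by
  intro h
  have h1 := LinearMap.congr_fun h u
  rw [om_apply, polar_self_of_sing hu, zero_smul, Module.End.one_apply] at h1
  exact hu0 h1.symm

theorem nn_ne_one {u z : κ → F} (hu : q u = 0) (hu0 : u ≠ 0) (hz : polar q u z = 0) : nn q u z ≠ 1 := by
  intro h
  have h1 := LinearMap.congr_fun h u
  rw [nn_apply, polar_self_of_sing hu, polar_comm q z u, hz, zero_smul, zero_smul, sub_zero,
    Module.End.one_apply] at h1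
  exact hu0 h1.symm

theorem isNn_sk {f : Module.End F (κ → F)} (h : IsNn q f) : Sk q f := by
  obtain ⟨u, z, -, -, -, -, rfl⟩ := h
  exact sk_nn u z

theorem not_om_nn (h2 : (2 : F) ≠ 0) (hq : Nondeg q) {f : Module.End F (κ → F)} (h : IsOm q f) (h' : IsNn q f) :
    False := by
  obtain ⟨w, hw0, hw, rfl⟩ := h
  obtain ⟨y, hy⟩ := LieClassical.OrthTrans.exists_hyp hq hw hw0
  have h1 := (isNn_sk h').self h2 y
  rw [om_apply, hy.pair, one_smul, hy.pair'] at h1
  exact one_ne_zero h1

/-- Choice of the conjugating element and the vector in one slot: `f` and a conjugate of `f`. -/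
theorem exists_same (h2 : (2 : F) ≠ 0) (hq : Nondeg q) (hd : 3 ≤ Fintype.card κ) {f : Module.End F (κ → F)}
    (hf : IsOm q f ∨ IsNn q f) : ∃ e ∈ E q, ∃ u, u ≠ 0 ∧ q u = 0 ∧ polar q u (f (cj e f u)) ≠ 0 ∧
      polar q u (cj e f (f u)) = polar q u (f (cj e f u)) := by
  rcases hf with ⟨v, hv0, hv, rfl⟩ | ⟨v, z, hv0, hv, hz, hqz, rfl⟩
  · obtain ⟨e, he, u, hu0, hu, h⟩ := nv_om h2 hq (by rw [Module.finrank_fintype_fun_eq_card]; exact hd) hv hv0
    refine ⟨e, he, u, hu0, hu, h, ?_⟩
    rw [cj_om (E_le_O he)]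
    exact (sy_om v).mul_comm' (sy_om _) u
  · obtain ⟨e, he, u, hu0, hu, h⟩ := nv_nn h2 hq hv hv0 hz hqz
    refine ⟨e, he, u, hu0, hu, h, ?_⟩
    rw [cj_nn (E_le_O he)]
    exact (sk_nn v z).mul_comm' (sk_nn _ _) u

theorem exists_mix (h2 : (2 : F) ≠ 0) (hq : Nondeg q) (hd : 3 ≤ Fintype.card κ) {f g : Module.End F (κ → F)}
    (hf : IsNn q f) (hg : IsOm q g) : ∃ e ∈ E q, ∃ u, u ≠ 0 ∧ q u = 0 ∧ polar q u (f (cj e g u)) ≠ 0 := by
  obtain ⟨v, z, hv0, hv, hz, hqz, rfl⟩ := hf
  obtain ⟨w, hw0, hw, rfl⟩ := hg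
  exact nv_mix h2 hq (by rw [Module.finrank_fintype_fun_eq_card]; exact hd) hv hv0 hz hqz hw hw0

/-- The conjugate of `c` by a permutation of the slots and by slot elements. -/
theorem exists_conj (h2 : (2 : F) ≠ 0) (hq : Nondeg q) (hd : 3 ≤ Fintype.card κ) (hG : Good (QT q ι))
    (hM : Over q M) {c : ι → Module.End F (κ → F)} (hP : PX M (op c)) (σ : Equiv.Perm ι) {S : Finset ι} {j : ι}
    (hj : IsNn q (c j)) (hσj : IsOm q (c ((σ * σ)⁻¹ j)))
    (hS : ∀ l ∈ S, l ≠ j → (IsOm q (c l) ∨ IsNn q (c l)) ∧ (σ * σ)⁻¹ l = l) :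
    ∃ (c' : ι → Module.End F (κ → F)) (u : ι → (κ → F)), PX M (op c') ∧ IsOm q (c' j) ∧
      (∀ l ∉ S, l ≠ j → c' l = c ((σ * σ)⁻¹ l)) ∧ (∀ l ∈ S, q (u l) = 0 ∧ u l ≠ 0) ∧
      (∀ l ∈ S, polar q (u l) (c l (c' l (u l))) ≠ 0) ∧
      (∀ l ∈ S, l ≠ j → polar q (u l) (c' l (c l (u l))) = polar q (u l) (c l (c' l (u l)))) := by
  have hex : ∀ l, ∃ e : (κ → F) ≃ₗ[F] (κ → F), ∃ u : κ → F, e ∈ E q ∧ (l ∉ S → l ≠ j → e = 1) ∧
      (l ∈ S → (q u = 0 ∧ u ≠ 0) ∧ polar q u (c l (cj e (c ((σ * σ)⁻¹ l)) u)) ≠ 0 ∧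
      (l ≠ j → polar q u (cj e (c ((σ * σ)⁻¹ l)) (c l u)) = polar q u (c l (cj e (c ((σ * σ)⁻¹ l)) u)))) := by
    intro l
    by_cases hlj : l = j
    · subst hlj
      obtain ⟨e, he, u, hu0, hu, h⟩ := exists_mix h2 hq hd hj hσj
      exact ⟨e, u, he, fun _ h => absurd rfl h, fun _ => ⟨⟨hu, hu0⟩, h, fun h => absurd rfl h⟩⟩
    · by_cases hlS : l ∈ S
      · obtain ⟨h1, h3⟩ := hS l hlS hlj
        obtain ⟨e, he, u, hu0, hu, h, h'⟩ := exists_same h2 hq hd h1
        refine ⟨e, u, he, fun h => absurd hlS h, fun _ => ⟨⟨hu, hu0⟩, ?_, fun _ => ?_⟩⟩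
        · rw [h3]; exact h
        · rw [h3]; exact h'
      · exact ⟨1, 0, (E q).one_mem, fun _ _ => rfl, fun h => absurd h hlS⟩
  choose e u he h1 h3 using hex
  refine ⟨fun l => cj (e l) (c ((σ * σ)⁻¹ l)), u, ?_, ?_, ?_, fun l hl => (h3 l hl).1, fun l hl => (h3 l hl).2.1,
    fun l hl => (h3 l hl).2.2⟩
  · have h4 := PX_cj hP (pe_mem h2 hG hM σ)
    rw [cj_pe_op] at h4
    have h5 := PX_cj h4 (opE_mem h2 hG hM he)
    rw [cj_opE_op] at h5
    exact h5
  · obtain ⟨w, hw0, hw, hwe⟩ := hσj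
    refine ⟨e j w, ?_, ?_, ?_⟩
    · intro h
      exact hw0 ((map_eq_zero_iff _ (e j).injective).1 h)
    · rw [E_le_O (he j), hw]
    · show cj (e j) (c ((σ * σ)⁻¹ j)) = _
      rw [hwe, cj_om (E_le_O (he j))]
  · intro l hl hlj
    show cj (e l) (c ((σ * σ)⁻¹ l)) = _
    rw [h1 l hl hlj, one_cj]

/-- The three-cycle `a → b → c → a` is a square. -/
theorem exists_cycle {a b c : ι} (hab : a ≠ b) (hac : a ≠ c) (hbc : b ≠ c) :
    ∃ σ : Equiv.Perm ι, (σ * σ)⁻¹ b = a ∧ (σ * σ)⁻¹ c = b ∧ (σ * σ)⁻¹ a = c ∧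
      ∀ l, l ≠ a → l ≠ b → l ≠ c → (σ * σ)⁻¹ l = l := by
  -- `σ = (a → c → b → a)`, `(σ σ)⁻¹ = σ`
  have key : ∀ (τ : Equiv.Perm ι), τ b = a → τ a = c → τ c = b → (∀ l, l ≠ a → l ≠ b → l ≠ c → τ l = l) →
      ∃ σ : Equiv.Perm ι, (σ * σ)⁻¹ b = a ∧ (σ * σ)⁻¹ c = b ∧ (σ * σ)⁻¹ a = c ∧
      ∀ l, l ≠ a → l ≠ b → l ≠ c → (σ * σ)⁻¹ l = l := by
    intro τ h1 h2 h3 h4
    have h5 : (τ * τ)⁻¹ = τ := by
      rw [inv_eq_iff_mul_eq_one]
      ext l
      show τ (τ (τ l)) = l
      by_cases ha : l = a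
      · rw [ha, h2, h3, h1]
      by_cases hb : l = b
      · rw [hb, h1, h2, h3]
      by_cases hc : l = c
      · rw [hc, h3, h1, h2]
      rw [h4 l ha hb hc, h4 l ha hb hc, h4 l ha hb hc]
    exact ⟨τ, by rw [h5, h1], by rw [h5, h3], by rw [h5, h2], fun l x y z => by rw [h5, h4 l x y z]⟩
  refine key (Equiv.swap a b * Equiv.swap a c) ?_ ?_ ?_ ?_
  · show Equiv.swap a b (Equiv.swap a c b) = a
    rw [Equiv.swap_apply_of_ne_of_ne hab.symm hbc, Equiv.swap_apply_right]
  · show Equiv.swap a b (Equiv.swap a c a) = c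
    rw [Equiv.swap_apply_left, Equiv.swap_apply_of_ne_of_ne hac.symm hbc.symm]
  · show Equiv.swap a b (Equiv.swap a c c) = b
    rw [Equiv.swap_apply_right, Equiv.swap_apply_left]
  · intro l h1 h2 h3
    show Equiv.swap a b (Equiv.swap a c l) = l
    rw [Equiv.swap_apply_of_ne_of_ne h1 h3, Equiv.swap_apply_of_ne_of_ne h1 h2]

/-- A pure element with one slot `nn` and the others `om` or `1`. -/
structure Pure1 (q : QuadraticForm F (κ → F)) (M : Subgroup (((ι → κ) → F) ≃ₗ[F] ((ι → κ) → F)))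
    (c : ι → Module.End F (κ → F)) (j : ι) : Prop where
  nn : IsNn q (c j)
  om : ∀ l, l ≠ j → c l = 1 ∨ IsOm q (c l)
  px : PX M (op c)

theorem isNn_smul {f : Module.End F (κ → F)} (h : IsNn q f) {s : F} (hs : s ≠ 0) : IsNn q (s • f) := by
  obtain ⟨u, z, hu0, hu, hz, hqz, rfl⟩ := h
  refine ⟨u, s • z, hu0, hu, by rw [polar_smul_right, hz, smul_zero], ?_, (nn_smul_right u z s).symm⟩
  rw [QuadraticMap.map_smul, smul_eq_mul]
  exact mul_ne_zero (mul_ne_zero hs hs) hqz

/-- absorbing a scalar -/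
theorem pure1_of_smul {d : ι → Module.End F (κ → F)} {j : ι} {s : F} (hs : s ≠ 0) (h1 : IsNn q (d j))
    (h : ∀ l, l ≠ j → d l = 1 ∨ IsOm q (d l)) (hP : PX M (s • op d)) :
    Pure1 q M (Function.update d j (s • d j)) j where
  nn := by rw [Function.update_self]; exact isNn_smul h1 hs
  om := fun l hl => by rw [Function.update_of_ne hl]; exact h l hl
  px := by rw [op_update_smul, Function.update_eq_self]; exact hP

/-- **Case B**: a slot with `c i0 = 1`. -/
theorem stepB [Finite F] (hA : OpA q ι) (H : Hyp7 q) (hG : Good (QT q ι)) (hM : Over q M)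
    {c : ι → Module.End F (κ → F)} {i j i0 : ι} (hi : IsOm q (c i)) (hj : IsNn q (c j)) (h0 : c i0 = 1)
    (hc : ∀ l, c l = 1 ∨ IsOm q (c l) ∨ IsNn q (c l)) (hP : PX M (op c)) :
    ∃ (d : ι → Module.End F (κ → F)), Pure1 q M d i0 ∧ IsOm q (d i) ∧ ∀ l, l ≠ i0 → d l = 1 → c l = 1 := by
  classical
  have h2 := H.two
  have hq := H.nd
  have hij : i ≠ j := by
    rintro rfl
    exact not_om_nn h2 hq hi hj
  have hi0 : i ≠ i0 := by
    rintro rfl
    obtain ⟨w, hw0, hw, hwe⟩ := hi
    exact om_ne_one hw hw0 (hwe.symm.trans h0)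
  have hj0 : j ≠ i0 := by
    rintro rfl
    obtain ⟨u, z, hu0, hu, hz, hqz, hue⟩ := hj
    exact nn_ne_one hu hu0 hz (hue.symm.trans h0)
  obtain ⟨σ, s1, s2, s3, s4⟩ := exists_cycle hij hi0 hj0
  let S : Finset ι := Finset.univ.filter fun l => l ≠ i ∧ l ≠ i0 ∧ c l ≠ 1
  have hSm : ∀ l, l ∈ S ↔ l ≠ i ∧ l ≠ i0 ∧ c l ≠ 1 := fun l => by simp [S]
  have hjS : j ∈ S := (hSm j).2 ⟨hij.symm, hj0, by
    obtain ⟨u, z, hu0, hu, hz, hqz, hue⟩ := hj
    rw [hue]
    exact nn_ne_one hu hu0 hz⟩
  have hiS : i ∉ S := fun h => ((hSm i).1 h).1 rfl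
  have hi0S : i0 ∉ S := fun h => ((hSm i0).1 h).2.1 rfl
  obtain ⟨c', u, hP', hcj, hcS, hu, hne, hsym⟩ := exists_conj h2 hq H.three hG hM hP σ (S := S) hj
    (by rw [s1]; exact hi) (fun l hl hlj => by
      obtain ⟨h1, h3, h4⟩ := (hSm l).1 hl
      exact ⟨(hc l).resolve_left h4, s4 l h1 hlj h3⟩)
  obtain ⟨w, hw0, hw, hwe⟩ := hi
  obtain ⟨w', hw0', hw', hwe'⟩ := hcj
  have hc'i : c' i = 1 := by rw [hcS i hiS hij, s3, h0]
  have hc'i0 : c' i0 = c j := by rw [hcS i0 hi0S hj0.symm, s2]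
  obtain ⟨s, hs, h5⟩ := core hA h2 hG hM hP hP' hw hw' hwe hwe' (isNn_sk hj)
    (by rw [hc'i, mul_one, om_om hw]) (a := 1) (b := 1) (by rw [hc'i, mul_one, one_smul, hwe])
    (by rw [hc'i, one_mul, one_smul, hwe]) hiS hjS hu hne hsym
  have hcomm : ∀ l ∉ S, c l * c' l = c' l * c l := by
    intro l hl
    by_cases h1 : l = i
    · rw [h1, hc'i, one_mul, mul_one]
    by_cases h3 : l = i0
    · rw [h3, h0, one_mul, mul_one]
    have h4 : c l = 1 := by
      by_contra h4
      exact hl ((hSm l).2 ⟨h1, h3, h4⟩)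
    rw [h4, one_mul, mul_one]
  have hfun : (fun l => if l ∈ S then om q (u l) else c' l * c l) =
      fun l => if l ∈ S then om q (u l) else c l * c' l := by
    funext l
    by_cases hl : l ∈ S
    · rw [if_pos hl, if_pos hl]
    · rw [if_neg hl, if_neg hl, hcomm l hl]
  rw [hfun, ← two_smul F, smul_smul] at h5
  set d : ι → Module.End F (κ → F) := fun l => if l ∈ S then om q (u l) else c l * c' l with hd
  have hdS : ∀ l ∈ S, d l = om q (u l) := fun l hl => if_pos hl
  have hdi : d i = om q w := by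
    rw [hd]
    show (if i ∈ S then _ else _) = _
    rw [if_neg hiS, hc'i, mul_one, hwe]
  have hdi0 : d i0 = c j := by
    rw [hd]
    show (if i0 ∈ S then _ else _) = _
    rw [if_neg hi0S, h0, one_mul, hc'i0]
  have hdo : ∀ l, l ∉ S → l ≠ i → l ≠ i0 → d l = 1 ∧ c l = 1 := by
    intro l hl h1 h3
    have h4 : c l = 1 := by
      by_contra h4
      exact hl ((hSm l).2 ⟨h1, h3, h4⟩)
    refine ⟨?_, h4⟩
    have hlj : l ≠ j := fun h => hl (h ▸ hjS)
    rw [hd]
    show (if l ∈ S then _ else _) = _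
    rw [if_neg hl, hcS l hl hlj, s4 l h1 hlj h3, h4, one_mul]
  refine ⟨_, pure1_of_smul (d := d) (j := i0) (mul_ne_zero hs h2) (by rw [hdi0]; exact hj) ?_ h5, ?_, ?_⟩
  · intro l hl
    by_cases hlS : l ∈ S
    · exact Or.inr ⟨u l, (hu l hlS).2, (hu l hlS).1, hdS l hlS⟩
    by_cases hli : l = i
    · exact Or.inr ⟨w, hw0, hw, by rw [hli, hdi]⟩
    · exact Or.inl (hdo l hlS hli hl).1
  · rw [Function.update_of_ne hi0, hdi]
    exact ⟨w, hw0, hw, rfl⟩
  · intro l hl
    rw [Function.update_of_ne hl]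
    intro h1
    by_cases hlS : l ∈ S
    · rw [hdS l hlS] at h1
      exact absurd h1 (om_ne_one (hu l hlS).1 (hu l hlS).2)
    by_cases hli : l = i
    · rw [hli, hdi] at h1
      exact absurd h1 (om_ne_one hw hw0)
    · exact (hdo l hlS hli hl).2

/-- replace a skew slot by a multiple of `w ∧ w'` -/
theorem replace (H : Hyp7 q) (hG : Good (QT q ι)) (hM : Over q M) {c : ι → Module.End F (κ → F)} {l l' : ι}
    (hl : l' ≠ l) (hl' : IsOm q (c l')) (hn : IsNn q (c l)) (hP : PX M (op c)) {w w' : κ → F} (hyp : Hyp q w w') :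
    ∃ r : F, r ≠ 0 ∧ PX M (op (Function.update c l (r • nn q w w'))) := by
  obtain ⟨v, hv0, hv, hve⟩ := hl'
  have hz : ∀ f g : Module.End F (κ → F), op (Function.update c l f) * op (Function.update c l g) = 0 := by
    intro f g
    rw [← op_mul]
    refine op_eq_zero (l := l') ?_
    rw [Function.update_of_ne hl, Function.update_of_ne hl, hve, om_om hv]
  let Z : AddSubgroup (Module.End F (κ → F)) :=
    { carrier := {f | PX M (op (Function.update c l f))}
      zero_mem' := by
        show PX M (op (Function.update c l 0))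
        rw [op_eq_zero (l := l) (Function.update_self ..)]
        exact PX_zero
      add_mem' := by
        intro f g hf hg
        show PX M (op (Function.update c l (f + g)))
        rw [op_update_add]
        exact PX_add hf hg (hz f g)
      neg_mem' := by
        intro f hf
        show PX M (op (Function.update c l (-f)))
        have h1 : -f = (-1 : F) • f := by module
        have h3 := PX_neg hf (hz f f)
        have h4 : -op (Function.update c l f) = (-1 : F) • op (Function.update c l f) := by module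
        rw [h1, op_update_smul, ← h4]
        exact h3 }
  have hZ : ∀ e ∈ E q, ∀ f ∈ Z, cj e f ∈ Z := by
    intro e he f hf
    show PX M (op (Function.update c l (cj e f)))
    rw [← cj_slE_op]
    exact PX_cj hf (slE_mem H.two hG hM l he)
  obtain ⟨u, z, hu0, hu, hz', hqz, hue⟩ := hn
  obtain ⟨r, hr, h1⟩ := lemT H.two H.nd (by rw [Module.finrank_fintype_fun_eq_card]; exact H.three) hZ hu hu0 hz' hqz
    (by
      show PX M (op (Function.update c l (nn q u z)))
      rw [← hue, Function.update_eq_self]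
      exact hP) hyp
  exact ⟨r, hr, h1⟩

/-- **Case A**: no slot with `c l = 1` and at least two skew slots. -/
theorem stepA [Finite F] (hA : OpA q ι) (H : Hyp7 q) (hG : Good (QT q ι)) (hM : Over q M)
    {c : ι → Module.End F (κ → F)} {i j k : ι} (hi : IsOm q (c i)) (hj : IsNn q (c j)) (hk : IsNn q (c k))
    (hjk : j ≠ k) (hc : ∀ l, IsOm q (c l) ∨ IsNn q (c l)) (hP : PX M (op c)) :
    ∃ (d : ι → Module.End F (κ → F)), Pure1 q M d k ∧ ∀ l, l ≠ k → IsOm q (d l) := by
  classical
  have h2 := H.two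
  have hq := H.nd
  have hij : i ≠ j := by
    rintro rfl
    exact not_om_nn h2 hq hi hj
  have hik : i ≠ k := by
    rintro rfl
    exact not_om_nn h2 hq hi hk
  obtain ⟨σ, s1, s2, s3, s4⟩ := exists_cycle hij hik hjk
  let S : Finset ι := Finset.univ.filter fun l => l ≠ i ∧ l ≠ k
  have hSm : ∀ l, l ∈ S ↔ l ≠ i ∧ l ≠ k := fun l => by simp [S]
  have hjS : j ∈ S := (hSm j).2 ⟨hij.symm, hjk⟩
  have hiS : i ∉ S := fun h => ((hSm i).1 h).1 rfl
  have hkS : k ∉ S := fun h => ((hSm k).1 h).2 rfl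
  obtain ⟨c0, u, hP0, hcj, hcS, hu, hne, hsym⟩ := exists_conj h2 hq H.three hG hM hP σ (S := S) hj
    (by rw [s1]; exact hi) (fun l hl hlj => by
      obtain ⟨h1, h3⟩ := (hSm l).1 hl
      exact ⟨hc l, s4 l h1 hlj h3⟩)
  obtain ⟨w, hw0, hw, hwe⟩ := hi
  obtain ⟨y, hy⟩ := LieClassical.OrthTrans.exists_hyp hq hw hw0
  obtain ⟨v, z, hv0, hv, hvz, hqz, hve⟩ := hk
  obtain ⟨x, hx, hzx⟩ := exists_pp h2 hq hv hv0 hvz hqz
  have hc0i : c0 i = c k := by rw [hcS i hiS hij, s3]
  have hc0k : c0 k = c j := by rw [hcS k hkS hjk.symm, s2]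
  -- replace the slots `i` and `k`
  obtain ⟨r, hr, hP1⟩ := replace H hG hM hij.symm hcj (by rw [hc0i, hve]; exact ⟨v, z, hv0, hv, hvz, hqz, rfl⟩)
    hP0 hy
  set c1 := Function.update c0 i (r • nn q w y) with hc1
  have hc1j : c1 j = c0 j := Function.update_of_ne hij.symm _ _
  have hc1k : c1 k = c j := by rw [hc1, Function.update_of_ne hik.symm, hc0k]
  obtain ⟨r', hr', hP2⟩ := replace H hG hM hjk (by rw [hc1j]; exact hcj) (by rw [hc1k]; exact hj) hP1 hx
  set c' := Function.update c1 k (r' • nn q v x) with hc'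
  have hc'k : c' k = r' • nn q v x := Function.update_self ..
  have hc'i : c' i = r • nn q w y := by rw [hc', Function.update_of_ne hik, hc1, Function.update_self]
  have hc'o : ∀ l, l ≠ i → l ≠ k → c' l = c0 l := fun l h1 h3 => by
    rw [hc', Function.update_of_ne h3, hc1, Function.update_of_ne h1]
  have hc'S : ∀ l ∈ S, c' l = c0 l := fun l hl => hc'o l ((hSm l).1 hl).1 ((hSm l).1 hl).2
  obtain ⟨w', hw0', hw', hwe'⟩ := hcj
  obtain ⟨s, hs, h5⟩ := core hA h2 hG hM hP hP2 hw hw' hwe ((hc'S j hjS).trans hwe') (isNn_sk hj)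
    (by rw [hc'i, mul_smul_comm, smul_mul_assoc, om_nn_hyp hy, om_om hw, smul_zero]) (a := r) (b := r * -1)
    (by rw [hc'i, hwe, mul_smul_comm, om_nn_hyp hy]) (by rw [hc'i, hwe, smul_mul_assoc, nn_om_hyp hy, smul_smul])
    hiS hjS hu (fun l hl => by rw [hc'S l hl]; exact hne l hl)
    (fun l hl hlj => by rw [hc'S l hl]; exact hsym l hl hlj)
  let D : Module.End F (κ → F) → Module.End F (κ → F) → ι → Module.End F (κ → F) := fun f g l =>
    if l ∈ S then om q (u l) else if l = i then f else g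
  have hik' : ∀ l, l ∉ S → l = i ∨ l = k := by
    intro l hl
    by_contra hcon
    push Not at hcon
    exact hl ((hSm l).2 hcon)
  have e1 : (fun l => if l ∈ S then om q (u l) else c l * c' l) = D (r • om q w) (r' • (nn q v z * nn q v x)) := by
    funext l
    by_cases hl : l ∈ S
    · simp only [D, if_pos hl]
    · simp only [D, if_neg hl]
      rcases hik' l hl with rfl | rfl
      · rw [if_pos rfl, hc'i, hwe, mul_smul_comm, om_nn_hyp hy]
      · rw [if_neg hik.symm, hc'k, hve, mul_smul_comm]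
  have e2 : (fun l => if l ∈ S then om q (u l) else c' l * c l) = D ((r * -1) • om q w) (r' • (nn q v x * nn q v z)) := by
    funext l
    by_cases hl : l ∈ S
    · simp only [D, if_pos hl]
    · simp only [D, if_neg hl]
      rcases hik' l hl with rfl | rfl
      · rw [if_pos rfl, hc'i, hwe, smul_mul_assoc, nn_om_hyp hy, smul_smul]
      · rw [if_neg hik.symm, hc'k, hve, smul_mul_assoc]
  have hDi : ∀ f g, D f g = Function.update (D 0 g) i f := by
    intro f g
    funext l
    by_cases hl : l = i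
    · subst hl
      rw [Function.update_self]
      simp only [D, if_neg hiS, if_true]
    · rw [Function.update_of_ne hl]
      simp only [D, if_neg hl]
  have hDk : ∀ f g, D f g = Function.update (D f 0) k g := by
    intro f g
    funext l
    by_cases hl : l = k
    · subst hl
      rw [Function.update_self]
      simp only [D, if_neg hkS, if_neg hik.symm]
    · rw [Function.update_of_ne hl]
      by_cases hlS : l ∈ S
      · simp only [D, if_pos hlS]
      · rcases hik' l hlS with h | h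
        · simp only [D, if_neg hlS, if_pos h]
        · exact absurd h hl
  have hsmi : ∀ (a : F) f g, op (D (a • f) g) = a • op (D f g) := by
    intro a f g
    rw [hDi, op_update_smul, ← hDi]
  have hsmk : ∀ (a : F) f g, op (D f (a • g)) = a • op (D f g) := by
    intro a f g
    rw [hDk, op_update_smul, ← hDk]
  have hadd : ∀ f g g', op (D f (g + g')) = op (D f g) + op (D f g') := by
    intro f g g'
    rw [hDk, op_update_add, ← hDk, ← hDk]
  have e3 : op (D (r • om q w) (r' • (nn q v z * nn q v x))) + op (D ((r * -1) • om q w) (r' • (nn q v x * nn q v z))) =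
      (r * r') • op (D (om q w) (nn q v z)) := by
    have e4 := nn_comm_hyp hx hvz hzx
    have e5 : op (D (om q w) (nn q v z)) = op (D (om q w) (nn q v z * nn q v x)) +
        (-1 : F) • op (D (om q w) (nn q v x * nn q v z)) := by
      rw [← hsmk, ← hadd, e4]
    rw [hsmi, hsmi, hsmk, hsmk, e5]
    module
  rw [e1, e2, e3, smul_smul] at h5
  have hdk : D (om q w) (nn q v z) k = nn q v z := by simp only [D, if_neg hkS, if_neg hik.symm]
  have hdo : ∀ l, l ≠ k → IsOm q (D (om q w) (nn q v z) l) := by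
    intro l hl
    by_cases hlS : l ∈ S
    · simp only [D, if_pos hlS]
      exact ⟨u l, (hu l hlS).2, (hu l hlS).1, rfl⟩
    · rcases hik' l hlS with h | h
      · simp only [D, if_neg hlS, if_pos h]
        exact ⟨w, hw0, hw, rfl⟩
      · exact absurd h hl
  refine ⟨_, pure1_of_smul (d := D (om q w) (nn q v z)) (j := k) (mul_ne_zero hs (mul_ne_zero hr hr')) ?_ ?_ h5, ?_⟩
  · rw [hdk]; exact ⟨v, z, hv0, hv, hvz, hqz, rfl⟩
  · intro l hl
    exact Or.inr (hdo l hl)
  · intro l hl
    rw [Function.update_of_ne hl]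
    exact hdo l hl

/-- **The end**: one skew slot, the others `om`. -/
theorem final (H : Hyp7 q) (ht : 2 ≤ Fintype.card ι) {c : ι → Module.End F (κ → F)} {j : ι}
    (hj : IsNn q (c j)) (hc : ∀ l, l ≠ j → IsOm q (c l)) (hP : PX M (op c)) :
    ∃ (a : ι → (κ → F)) (j : ι) (z : κ → F), (∀ l, a l ≠ 0 ∧ q (a l) = 0) ∧ polar q (a j) z = 0 ∧ q z ≠ 0 ∧
      H883.Root.Has (QT q ι) M (tp a) (tp (Function.update a j z)) := by
  classical
  obtain ⟨v, z, hv0, hv, hvz, hqz, hve⟩ := hj
  have h1 : ∀ l, ∃ a : κ → F, a ≠ 0 ∧ q a = 0 ∧ (l ≠ j → c l = om q a) ∧ (l = j → a = v) := by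
    intro l
    by_cases hl : l = j
    · exact ⟨v, hv0, hv, fun h => absurd hl h, fun _ => rfl⟩
    · obtain ⟨w, hw0, hw, hwe⟩ := hc l hl
      exact ⟨w, hw0, hw, fun _ => hwe, fun h => absurd h hl⟩
  choose a ha0 ha hao haj using h1
  have haj' : a j = v := haj j rfl
  obtain ⟨k, hk⟩ : ∃ k, k ≠ j := by
    have : Nontrivial ι := Fintype.one_lt_card_iff_nontrivial.1 (by omega)
    exact exists_ne j
  have hpz : ∀ x : ι → (κ → F), polar (QT q ι) (tp (Function.update a j z)) (tp x) =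
      polar q z (x j) * ∏ l ∈ Finset.univ.erase j, polar q (a l) (x l) := by
    intro x
    rw [polar_tp H.two, ← Finset.mul_prod_erase _ _ (Finset.mem_univ j), Function.update_self]
    congr 1
    refine Finset.prod_congr rfl fun l hl => ?_
    rw [Function.update_of_ne (Finset.ne_of_mem_erase hl)]
  have hpa : ∀ x : ι → (κ → F), polar (QT q ι) (tp a) (tp x) =
      polar q v (x j) * ∏ l ∈ Finset.univ.erase j, polar q (a l) (x l) := by
    intro x
    rw [polar_tp H.two, ← Finset.mul_prod_erase _ _ (Finset.mem_univ j), haj']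
  have hQ : ∀ x, (∃ l, polar q (x l) (x l) = 0) → (QT q ι) (tp x) = 0 := by
    rintro x ⟨l, hl⟩
    have h3 : 2 * (QT q ι) (tp x) = 0 := by
      rw [← polar_self', polar_tp H.two]
      exact Finset.prod_eq_zero (Finset.mem_univ l) hl
    exact (mul_eq_zero.1 h3).resolve_left H.two
  have hQa : (QT q ι) (tp a) = 0 := hQ a ⟨j, polar_self_of_sing (ha j)⟩
  have hQz : (QT q ι) (tp (Function.update a j z)) = 0 :=
    hQ _ ⟨k, by rw [Function.update_of_ne hk]; exact polar_self_of_sing (ha k)⟩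
  have hperp : polar (QT q ι) (tp a) (tp (Function.update a j z)) = 0 := by
    rw [hpa, Function.update_self, hvz, zero_mul]
  refine ⟨a, j, z, fun l => ⟨ha0 l, ha l⟩, by rw [haj', hvz], hqz, hQa, hperp, ?_⟩
  obtain ⟨g, hg, hgv⟩ := hP
  have e : siegel (QT q ι) (tp a) (tp (Function.update a j z)) hQa hperp = g := by
    have h3 : ((siegel (QT q ι) (tp a) (tp (Function.update a j z)) hQa hperp :
        ((ι → κ) → F) ≃ₗ[F] ((ι → κ) → F)) : Module.End F ((ι → κ) → F)) = 1 + op c := by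
      rw [siegel_eq, hQz, zero_smul, sub_zero]
      congr 1
      refine tp_ext fun x => ?_
      rw [nn_apply, hpz, hpa, op_tp]
      have e1 : tp (fun l => c l (x l)) =
          tp (Function.update (fun l => polar q (a l) (x l) • a l) j (c j (x j))) := by
        congr 1
        funext l
        by_cases hl : l = j
        · rw [hl, Function.update_self]
        · rw [Function.update_of_ne hl, hao l hl, om_apply]
      have e2 : ∀ y : κ → F, tp (Function.update (fun l => polar q (a l) (x l) • a l) j y) =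
          (∏ l ∈ Finset.univ.erase j, polar q (a l) (x l)) • tp (Function.update a j y) := by
        intro y
        have e3 : Function.update (fun l => polar q (a l) (x l) • a l) j y =
            fun l => (if l = j then (1 : F) else polar q (a l) (x l)) • Function.update a j y l := by
          funext l
          by_cases hl : l = j
          · rw [hl, Function.update_self, Function.update_self, if_pos rfl, one_smul]
          · rw [Function.update_of_ne hl, Function.update_of_ne hl, if_neg hl]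
        rw [e3, tp_smul_all, ← Finset.mul_prod_erase _ _ (Finset.mem_univ j), if_pos rfl, one_mul]
        congr 1
        refine Finset.prod_congr rfl fun l hl => ?_
        rw [if_neg (Finset.ne_of_mem_erase hl)]
      rw [e1, e2, hve, nn_apply]
      have e4 : tp (Function.update a j (polar q v (x j) • z - polar q z (x j) • v)) =
          polar q v (x j) • tp (Function.update a j z) - polar q z (x j) • tp a := by
        have e5 : polar q v (x j) • z - polar q z (x j) • v = polar q v (x j) • z + (-polar q z (x j)) • v := by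
          module
        have e6 : tp (Function.update a j v) = tp a := by rw [← haj', Function.update_eq_self]
        rw [e5, tp_update_add, tp_update_smul, tp_update_smul, e6]
        module
      rw [e4]
      module
    ext1 v
    have h4 := LinearMap.congr_fun h3 v
    rw [hgv]
    exact h4
  rw [e]
  exact hg

/-- **From a pure element to a root element.** -/
theorem root_of_pure_of_opA [Finite F] (hA : OpA q ι) (H : Hyp7 q) (ht : 2 ≤ Fintype.card ι)
    (hM : Over q M) {c : ι → Module.End F (κ → F)} {i j : ι} (hi : IsOm q (c i)) (hj : IsNn q (c j))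
    (hc : ∀ l, c l = 1 ∨ IsOm q (c l) ∨ IsNn q (c l)) (hP : PX M (op c)) :
    ∃ (a : ι → (κ → F)) (j : ι) (z : κ → F), (∀ l, a l ≠ 0 ∧ q (a l) = 0) ∧ polar q (a j) z = 0 ∧ q z ≠ 0 ∧
      H883.Root.Has (QT q ι) M (tp a) (tp (Function.update a j z)) := by
  classical
  have hG := H.good ht
  -- induction on the number of slots with `c l = 1`
  obtain ⟨n, hn⟩ : ∃ n, (Finset.univ.filter fun l => c l = 1).card = n := ⟨_, rfl⟩
  induction n using Nat.strong_induction_on generalizing c i j with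
  | _ n ih =>
    by_cases h0 : ∃ i0, c i0 = 1
    · obtain ⟨i0, h0⟩ := h0
      obtain ⟨d, hd, hdi, hdl⟩ := stepB hA H hG hM hi hj h0 hc hP
      have hdn : d i0 ≠ 1 := by
        obtain ⟨u, z, hu0, hu, hz, hqz, hue⟩ := hd.nn
        rw [hue]
        exact nn_ne_one hu hu0 hz
      have hlt : (Finset.univ.filter fun l => d l = 1).card < n := by
        rw [← hn]
        refine Finset.card_lt_card ⟨?_, ?_⟩
        · intro l hl
          rw [Finset.mem_filter] at hl ⊢
          have hl0 : l ≠ i0 := by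
            rintro rfl
            exact hdn hl.2
          exact ⟨Finset.mem_univ _, hdl l hl0 hl.2⟩
        · intro hsub
          have h3 := hsub (Finset.mem_filter.2 ⟨Finset.mem_univ i0, h0⟩)
          rw [Finset.mem_filter] at h3
          exact hdn h3.2
      refine ih _ hlt hdi hd.nn (fun l => ?_) hd.px rfl
      by_cases hl : l = i0
      · rw [hl]; exact Or.inr (Or.inr hd.nn)
      · rcases hd.om l hl with h | h
        · exact Or.inl h
        · exact Or.inr (Or.inl h)
    · push Not at h0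
      have hc' : ∀ l, IsOm q (c l) ∨ IsNn q (c l) := fun l => (hc l).resolve_left (h0 l)
      by_cases h3 : ∃ k, k ≠ j ∧ IsNn q (c k)
      · obtain ⟨k, hk, hkn⟩ := h3
        obtain ⟨d, hd, hdl⟩ := stepA hA H hG hM hi hj hkn hk.symm hc' hP
        exact final H ht hd.nn hdl hd.px
      · push Not at h3
        exact final H ht hj (fun l hl => (hc' l).resolve_right (h3 l hl)) hP

end Cfsg.Agent.H296.C7
end

-- part: H296/C7/RootPure
section
/-!
# From a pure element to a root element (final form)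
-/

set_option autoImplicit false
set_option linter.unusedSectionVars false

namespace Cfsg.Agent.H296.C7

open QuadraticMap hiding proj
open Cfsg.Agent.LieClassical.OrthCore Cfsg.Agent.LieClassical.OrthTrans
open Cfsg.Agent.H882.Ten Cfsg.Agent.LieClassical.OrthFinite Cfsg.Agent.H883.C7

variable {F : Type*} [Field F] {κ : Type*} [Fintype κ] [DecidableEq κ] {ι : Type*} [Fintype ι] [DecidableEq ι]

/-- **From a pure element to a root element.** -/
theorem root_of_pure [Finite F] {q : QuadraticForm F (κ → F)} (H : Hyp7 q) (ht : 2 ≤ Fintype.card ι)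
    {M : Subgroup (((ι → κ) → F) ≃ₗ[F] ((ι → κ) → F))} (hM : Over q M) {c : ι → Module.End F (κ → F)} {i j : ι}
    (hi : IsOm q (c i)) (hj : IsNn q (c j)) (hc : ∀ l, c l = 1 ∨ IsOm q (c l) ∨ IsNn q (c l)) (hP : PX M (op c)) :
    ∃ (a : ι → (κ → F)) (j : ι) (z : κ → F), (∀ l, a l ≠ 0 ∧ q (a l) = 0) ∧ polar q (a j) z = 0 ∧ q z ≠ 0 ∧
      H883.Root.Has (QT q ι) M (tp a) (tp (Function.update a j z)) :=
  root_of_pure_of_opA (fun _ hu hu0 => H734.C7.opA H hu hu0) H ht hM hi hj hc hP

end Cfsg.Agent.H296.C7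
end

-- part: H889/C7O/Twist
section
/-!
# Similarities with multiplier `-1` over the exceptional fields (task 1882)

* `Tw q w w' μ a b` : `μ` is a similarity with multiplier `-1`, `μ w = w`, `μ w' = - w'`, and
  `y = - a μ y + b μ² y` for `y ⊥ w, w'`, with integers `a`, `b`, `a ≠ 0` in `F`;
* `exists_tw` : existence over the exceptional fields;
* `exists_line` : `E q` is transitive on the singular points.
-/

set_option autoImplicit false
set_option linter.unusedSectionVars false

namespace Cfsg.Agent.H889.C7O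

open QuadraticMap hiding proj
open Cfsg.Agent.LieClassical.OrthCore Cfsg.Agent.LieClassical.OrthTrans
open Cfsg.Agent.H882.Ten Cfsg.Agent.LieClassical.OrthFinite
open Cfsg.Agent.H883.C7

variable {F : Type*} [Field F] {κ : Type*} [Fintype κ] [DecidableEq κ]

/-- the twist -/
structure Tw (q : QuadraticForm F (κ → F)) (w w' : κ → F) (μ : (κ → F) ≃ₗ[F] (κ → F)) (a b : ℤ) : Prop where
  sim : ∀ x y, polar q (μ x) (μ y) = -1 * polar q x y
  fw : μ w = w
  fw' : μ w' = -w'
  rel : ∀ y, polar q w y = 0 → polar q w' y = 0 → y = (-(a : F)) • μ y + (b : F) • μ (μ y)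
  ane : (a : F) ≠ 0

/-- A similarity of a nondegenerate form is invertible. -/
theorem exists_equiv {q : QuadraticForm F (κ → F)} (hq : Nondeg q) (f : Module.End F (κ → F))
    (hf : ∀ x y, polar q (f x) (f y) = -1 * polar q x y) : ∃ μ : (κ → F) ≃ₗ[F] (κ → F), ∀ v, μ v = f v := by
  have hinj : Function.Injective f := by
    rw [← LinearMap.ker_eq_bot, LinearMap.ker_eq_bot']
    intro x hx
    refine hq x fun y => ?_
    have h1 := hf x y
    rw [hx, polar_zero_left] at h1
    linear_combination h1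
  exact ⟨LinearEquiv.ofInjectiveEndo f hinj, fun v => rfl⟩

theorem exists_tw_five {q : QuadraticForm F (κ → F)} (hq : Nondeg q) (h5 : (5 : F) = 0) {w w' : κ → F}
    (hyp : Hyp q w w') : ∃ μ, Tw q w w' μ 1 2 := by
  let f : Module.End F (κ → F) := (2 : F) • LinearMap.id - (polarBilin q w').smulRight w -
    (3 : F) • (polarBilin q w).smulRight w'
  have hf : ∀ v, f v = (2 : F) • v - polar q w' v • w - (3 : F) • polar q w v • w' := fun v => rfl
  obtain ⟨μ, hμ⟩ := exists_equiv hq f (by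
    intro x y
    rw [hf, hf]
    simp only [polar_sub_left, polar_smul_left, polar_sub_right, polar_smul_right,
      hyp.pair, hyp.pair', hyp.polar_left, hyp.polar_right, smul_eq_mul, polar_comm q x w, polar_comm q x w']
    linear_combination (polar q x y - polar q w x * polar q w' y - polar q w' x * polar q w y) * h5)
  refine ⟨μ, ⟨fun x y => ?_, ?_, ?_, ?_, ?_⟩⟩
  · rw [hμ, hμ, hf, hf]
    simp only [polar_sub_left, polar_smul_left, polar_sub_right, polar_smul_right,
      hyp.pair, hyp.pair', hyp.polar_left, hyp.polar_right, smul_eq_mul, polar_comm q x w, polar_comm q x w']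
    linear_combination (polar q x y - polar q w x * polar q w' y - polar q w' x * polar q w y) * h5
  · rw [hμ, hf, hyp.pair', hyp.polar_left, zero_smul, smul_zero, sub_zero, one_smul]
    module
  · rw [hμ, hf, hyp.pair, hyp.polar_right, zero_smul, one_smul, sub_zero]
    module
  · intro y hy hy'
    have h1 : ∀ z, polar q w z = 0 → polar q w' z = 0 → μ z = (2 : F) • z := by
      intro z hz hz'
      rw [hμ, hf, hz, hz']
      simp
    rw [h1 y hy hy', h1 _ (by rw [polar_smul_right, hy, smul_zero]) (by rw [polar_smul_right, hy', smul_zero])]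
    have e : (-((1 : ℤ) : F)) • (2 : F) • y + ((2 : ℤ) : F) • (2 : F) • (2 : F) • y = (1 + 5 : F) • y := by
      push_cast
      module
    rw [e, h5, add_zero, one_smul]
  · simp

theorem exists_tw_three {q : QuadraticForm F (κ → F)} (h2 : (2 : F) ≠ 0) (hq : Nondeg q) (h3 : (3 : F) = 0)
    (hsq : ∀ x : F, x ≠ 0 → x * x = 1)
    (hk : Fintype.card κ = 4) (hfour : ∀ w x, w ≠ 0 → q w = 0 → q x = 0 → polar q w x = 0 → ∃ c : F, x = c • w)
    {w w' : κ → F} (hyp : Hyp q w w') : ∃ μ, Tw q w w' μ (-1) 1 := by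
  have hd : 4 = Module.finrank F (κ → F) := by rw [Module.finrank_fintype_fun_eq_card, hk]
  -- anisotropy
  have han : ∀ y, polar q w y = 0 → polar q w' y = 0 → q y = 0 → y = 0 := by
    intro y hy hy' h0
    obtain ⟨c, rfl⟩ := hfour w y hyp.left_ne hyp.left h0 hy
    rw [polar_smul_right, hyp.pair', smul_eq_mul, mul_one] at hy'
    rw [hy', zero_smul]
  obtain ⟨y1, h10, h1⟩ := exists_perp_ne (Q := q) ![w, w'] (by omega)
  have a1 : polar q w y1 = 0 := h1 0
  have a2 : polar q w' y1 = 0 := h1 1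
  obtain ⟨y2, h20, h2'⟩ := exists_perp_ne (Q := q) ![w, w', y1] (by omega)
  have b1 : polar q w y2 = 0 := h2' 0
  have b2 : polar q w' y2 = 0 := h2' 1
  have b3 : polar q y1 y2 = 0 := h2' 2
  have b3' : polar q y2 y1 = 0 := by rw [polar_comm]; exact b3
  have n1 : q y1 ≠ 0 := fun h => h10 (han _ a1 a2 h)
  have n2 : q y2 ≠ 0 := fun h => h20 (han _ b1 b2 h)
  have key : ∀ u v, polar q w u = 0 → polar q w' u = 0 → polar q w v = 0 → polar q w' v = 0 → polar q u v = 0 →
      q u ≠ 0 → q v ≠ 0 → q u = q v := by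
    intro u v hu hu' hv hv' huv nu nv
    have e1 : (q u - q v) * (q u + q v) = 0 := by linear_combination hsq _ nu - hsq _ nv
    rcases mul_eq_zero.1 e1 with h | h
    · exact sub_eq_zero.1 h
    · exfalso
      have h4 : u + v = 0 := han _ (by rw [polar_add_right, hu, hv, add_zero])
        (by rw [polar_add_right, hu', hv', add_zero]) (by rw [Q_add, huv, add_zero, h])
      have h5 := congrArg (polar q u) h4
      rw [polar_add_right, huv, add_zero, polar_self', polar_zero_right] at h5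
      exact mul_ne_zero h2 nu h5
  have he : q y2 = q y1 := key y2 y1 b1 b2 a1 a2 b3' n2 n1
  set ε := q y1 with hε
  have hεε : ε * ε = 1 := hsq _ n1
  have p1 : polar q y1 y1 = -ε := by rw [polar_self', ← hε]; linear_combination ε * h3
  have p2 : polar q y2 y2 = -ε := by rw [polar_self', he]; linear_combination ε * h3
  -- expansion
  have hexp : ∀ v, v = polar q w' v • w + polar q w v • w' + (-ε * polar q y1 v) • y1 + (-ε * polar q y2 v) • y2 := by
    intro v
    set r := v - (polar q w' v • w + polar q w v • w' + (-ε * polar q y1 v) • y1 + (-ε * polar q y2 v) • y2) with hr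
    have r1 : polar q w r = 0 := by
      rw [hr]
      simp only [polar_sub_right, polar_add_right, polar_smul_right, hyp.pair, hyp.polar_left, a1, b1, smul_eq_mul]
      ring
    have r2 : polar q w' r = 0 := by
      rw [hr]
      simp only [polar_sub_right, polar_add_right, polar_smul_right, hyp.pair', hyp.polar_right, a2, b2, smul_eq_mul]
      ring
    have r3 : polar q y1 r = 0 := by
      rw [hr]
      simp only [polar_sub_right, polar_add_right, polar_smul_right, polar_comm q y1 w, polar_comm q y1 w', a1, a2,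
        p1, b3, smul_eq_mul]
      linear_combination (-polar q y1 v) * hεε
    have r4 : polar q y2 r = 0 := by
      rw [hr]
      simp only [polar_sub_right, polar_add_right, polar_smul_right, polar_comm q y2 w, polar_comm q y2 w', b1, b2,
        p2, b3', smul_eq_mul]
      linear_combination (-polar q y2 v) * hεε
    have r0 : r = 0 := by
      by_contra hne
      have nr : q r ≠ 0 := fun h => hne (han _ r1 r2 h)
      have e1 : q y1 = q r := key y1 r a1 a2 r1 r2 r3 n1 nr
      have e2 : y1 + y2 + r = 0 := han _ (by rw [polar_add_right, polar_add_right, a1, b1, r1]; simp)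
        (by rw [polar_add_right, polar_add_right, a2, b2, r2]; simp)
        (by
          rw [Q_add, Q_add, polar_add_left, b3, r3, r4, he, ← e1, ← hε]
          linear_combination ε * h3)
      have e3 := congrArg (polar q y1) e2
      rw [polar_add_right, polar_add_right, b3, r3, p1, polar_zero_right] at e3
      exact n1 (by linear_combination -e3)
    rw [hr] at r0
    exact sub_eq_zero.1 r0
  let f : Module.End F (κ → F) := (polarBilin q w').smulRight w - (polarBilin q w).smulRight w' +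
    (-ε) • (polarBilin q y1).smulRight (y1 + y2) + (-ε) • (polarBilin q y2).smulRight (y2 - y1)
  have hf : ∀ v, f v = polar q w' v • w - polar q w v • w' + (-ε) • polar q y1 v • (y1 + y2) +
    (-ε) • polar q y2 v • (y2 - y1) := fun v => rfl
  have hpol : ∀ x y, polar q x y = polar q w' x * polar q w y + polar q w x * polar q w' y -
      ε * (polar q y1 x * polar q y1 y + polar q y2 x * polar q y2 y) := by
    intro x y
    conv_lhs => rw [hexp x]
    simp only [polar_add_left, polar_smul_left, smul_eq_mul]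
    ring
  have hsim : ∀ x y, polar q (f x) (f y) = -1 * polar q x y := by
    intro x y
    rw [hpol x y, hf, hf]
    simp only [polar_add_left, polar_sub_left, polar_smul_left, polar_add_right, polar_sub_right, polar_smul_right,
      hyp.pair, hyp.pair', hyp.polar_left, hyp.polar_right, smul_eq_mul, a1, a2, b1, b2, b3, b3', p1, p2,
      polar_comm q y1 w, polar_comm q y1 w', polar_comm q y2 w, polar_comm q y2 w']
    have hε3 : ε * ε * ε = ε := by rw [hεε, one_mul]
    linear_combination (-2 * (polar q y1 x * polar q y1 y + polar q y2 x * polar q y2 y)) * hε3 -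
      ε * (polar q y1 x * polar q y1 y + polar q y2 x * polar q y2 y) * h3
  obtain ⟨μ, hμ⟩ := exists_equiv hq f hsim
  have m1 : μ y1 = y1 + y2 := by
    rw [hμ, hf, a1, a2, p1, b3', zero_smul, zero_smul, zero_smul, smul_zero, add_zero, sub_zero, zero_add, smul_smul,
      neg_mul_neg, hεε, one_smul]
  have m2 : μ y2 = y2 - y1 := by
    rw [hμ, hf, b1, b2, p2, b3, zero_smul, zero_smul, zero_smul, smul_zero, add_zero, sub_zero, zero_add, smul_smul,
      neg_mul_neg, hεε, one_smul]
  refine ⟨μ, ⟨fun x y => by rw [hμ, hμ]; exact hsim x y, ?_, ?_, ?_, ?_⟩⟩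
  · rw [hμ, hf, hyp.pair', hyp.polar_left, polar_comm q y1 w, a1, polar_comm q y2 w, b1]
    simp
  · rw [hμ, hf, hyp.pair, hyp.polar_right, polar_comm q y1 w', a2, polar_comm q y2 w', b2]
    simp
  · intro y hy hy'
    have e := hexp y
    rw [hy, hy', zero_smul, zero_smul, zero_add, zero_add] at e
    generalize -ε * polar q y1 y = c1 at e
    generalize -ε * polar q y2 y = c2 at e
    rw [e]
    simp only [map_add, map_smul, m1, m2, map_sub]
    push_cast
    have e' : c1 • y1 + c2 • y2 = c1 • y1 + c2 • y2 + (3 : F) • (c1 • y2 - c2 • y1) := by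
      rw [h3, zero_smul, add_zero]
    rw [e']
    module
  · simp

/-- **Existence.** -/
theorem exists_tw [Finite F] {q : QuadraticForm F (κ → F)} (H : Hyp7 q)
    (hexc : (Fintype.card κ = 3 ∧ Nat.card F = 5) ∨ (Fintype.card κ = 4 ∧ (Nat.card F = 3 ∨ Nat.card F = 5)))
    {w w' : κ → F} (hyp : Hyp q w w') : ∃ μ a b, Tw q w w' μ a b := by
  have : Fintype F := Fintype.ofFinite F
  have hc : ((Nat.card F : ℕ) : F) = 0 := by
    rw [Nat.card_eq_fintype_card]
    exact FiniteField.cast_card_eq_zero F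
  have h5 : Nat.card F = 5 → ∃ μ a b, Tw q w w' μ a b := by
    intro h
    rw [h] at hc
    obtain ⟨μ, hμ⟩ := exists_tw_five H.nd (by exact_mod_cast hc) hyp
    exact ⟨μ, 1, 2, hμ⟩
  rcases hexc with ⟨_, h⟩ | ⟨hk, h | h⟩
  · exact h5 h
  · rw [h] at hc
    obtain ⟨μ, hμ⟩ := exists_tw_three H.two H.nd (by exact_mod_cast hc) (by
      intro x hx
      have h1 := FiniteField.pow_card_sub_one_eq_one x hx
      rw [← Nat.card_eq_fintype_card, h] at h1
      rw [← h1]
      ring) hk (H.four hk) hyp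
    exact ⟨μ, -1, 1, hμ⟩
  · exact h5 h

/-- `E q` is transitive on the singular points. -/
theorem exists_line {q : QuadraticForm F (κ → F)} (hq : Nondeg q) (hd : 3 ≤ Fintype.card κ) {u w : κ → F}
    (hu0 : u ≠ 0) (hu : q u = 0) (hw0 : w ≠ 0) (hw : q w = 0) : ∃ e ∈ E q, ∃ c : F, c ≠ 0 ∧ e u = c • w := by
  suffices h : ∃ e ∈ E q, ∃ c : F, e u = c • w by
    obtain ⟨e, he, c, hc⟩ := h
    refine ⟨e, he, c, ?_, hc⟩
    rintro rfl
    rw [zero_smul] at hc
    exact hu0 ((map_eq_zero_iff e e.injective).1 hc)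
  by_cases hdep : ∃ c : F, u = c • w
  · obtain ⟨c, hc⟩ := hdep
    exact ⟨1, (E q).one_mem, c, hc⟩
  push Not at hdep
  by_cases hp : polar q u w = 0
  · obtain ⟨g, hg, hgu⟩ := exists_siegel_of_orth hq hu hw hp (by
      intro c hc
      have h1 : (1 + c) • u = c • w := by
        have : (1 + c) • u = u + c • u := by module
        rw [this]
        nth_rewrite 1 [hc]
        module
      by_cases h0 : 1 + c = 0
      · rw [h0, zero_smul] at h1
        rcases smul_eq_zero.1 h1.symm with h | h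
        · rw [h, add_zero] at h0
          exact one_ne_zero h0
        · exact hw0 h
      · refine hdep ((1 + c)⁻¹ * c) ?_
        rw [mul_smul, ← h1, smul_smul, inv_mul_cancel₀ h0, one_smul])
    exact ⟨g, hg, 1, by rw [hgu, one_smul]⟩
  · have hyp : Hyp q u ((polar q u w)⁻¹ • w) := by
      refine ⟨hu, ?_, ?_⟩
      · rw [QuadraticMap.map_smul, hw, smul_zero]
      · rw [polar_smul_right, smul_eq_mul, inv_mul_cancel₀ hp]
    set w' := (polar q u w)⁻¹ • w with hw'
    obtain ⟨z, hz1, hz2, hz3⟩ := exists_nonsing_perp hq (by rw [Module.finrank_fintype_fun_eq_card]; exact hd) hyp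
    have hx := sing_vec hyp hz1 hz2
    set x := u + z - q z • w' with hxd
    have hxu : polar q x u = -(q z) := by
      rw [hxd, polar_sub_left, polar_add_left, polar_smul_left, hyp.polar_left, polar_comm q z, hz1, hyp.pair']
      simp
    have hxw : polar q x w' = 1 := by
      rw [hxd, polar_sub_left, polar_add_left, polar_smul_left, hyp.polar_right, polar_comm q z, hz2, hyp.pair]
      simp
    have hn : -(q z) ≠ 0 := neg_ne_zero.2 hz3
    have h1 : Hyp q x ((-(q z))⁻¹ • u) := by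
      refine ⟨hx, ?_, ?_⟩
      · rw [QuadraticMap.map_smul, hu, smul_zero]
      · rw [polar_smul_right, hxu, smul_eq_mul, inv_mul_cancel₀ hn]
    have h3 : Hyp q x w' := ⟨hx, hyp.right, hxw⟩
    obtain ⟨g, hg, -, hgu⟩ := siegel_partner h1 h3
    refine ⟨g, hg, -(q z) * (polar q u w)⁻¹, ?_⟩
    rw [map_smul] at hgu
    rw [mul_smul, ← hw', ← hgu, smul_smul, mul_inv_cancel₀ hn, one_smul]

end Cfsg.Agent.H889.C7O
end

-- part: H889/C7O/Odd
section
/-!
# The odd operators commuting with the Siegel group of a slot (task 1882)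
-/

set_option autoImplicit false
set_option linter.unusedSectionVars false

namespace Cfsg.Agent.H889.C7O

open QuadraticMap hiding proj
open Cfsg.Agent.LieClassical.OrthCore Cfsg.Agent.LieClassical.OrthTrans
open Cfsg.Agent.H882.Ten Cfsg.Agent.LieClassical.OrthFinite
open Cfsg.Agent.H883.C7

variable {F : Type*} [Field F] {κ : Type*} [Fintype κ] [DecidableEq κ] {ι : Type*} [Fintype ι] [DecidableEq ι]
  {q : QuadraticForm F (κ → F)} {w w' : κ → F} {μ : (κ → F) ≃ₗ[F] (κ → F)} {a b : ℤ}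

theorem Tw.inv_w (hμ : Tw q w w' μ a b) : μ⁻¹ w = w := by
  have h : μ⁻¹ (μ w) = w := LinearEquiv.symm_apply_apply μ w
  rwa [hμ.fw] at h

theorem Tw.inv_sim (hμ : Tw q w w' μ a b) (x y : κ → F) : polar q (μ⁻¹ x) (μ⁻¹ y) = -1 * polar q x y := by
  have h1 := hμ.sim (μ⁻¹ x) (μ⁻¹ y)
  have h2 : ∀ v, μ (μ⁻¹ v) = v := fun v => LinearEquiv.apply_symm_apply μ v
  rw [h2, h2] at h1
  linear_combination h1

theorem cj_slE_inv_apply (m : ι) (X : Module.End F ((ι → κ) → F)) (v : (ι → κ) → F) :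
    cj (slE m μ⁻¹) X v = slE m μ⁻¹ (X (slE m μ v)) := by
  have : (slE m μ⁻¹)⁻¹ = slE (F := F) m μ := by rw [← map_inv, inv_inv]
  rw [cj_apply, this]

theorem odd_rel (h2 : (2 : F) ≠ 0) (hyp : Hyp q w w')
    (hd : ∃ z, polar q w z = 0 ∧ polar q w' z = 0 ∧ q z ≠ 0) (hμ : Tw q w w' μ a b) {m : ι}
    {X : Module.End F ((ι → κ) → F)} (hX : NC q w m X)
    (hp : sl m (pp q w w') * X + X * sl m (pp q w w') = X) :
    cj (slE m μ⁻¹) (cj (slE m μ⁻¹) X) = a • cj (slE m μ⁻¹) X + b • X := by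
  have hn : (-1 : F) ≠ 0 := neg_ne_zero.2 one_ne_zero
  have hEX : NC q w m (cj (slE m μ⁻¹) X) := hX.cj hn hμ.inv_sim hμ.inv_w
  have hEEX : NC q w m (cj (slE m μ⁻¹) (cj (slE m μ⁻¹) X)) := hEX.cj hn hμ.inv_sim hμ.inv_w
  rw [← Int.cast_smul_eq_zsmul F, ← Int.cast_smul_eq_zsmul F, ← sub_eq_zero]
  refine comm_zero h2 hyp hd (m := m) (hEEX.sub ((hEX.smul _).add (hX.smul _))) fun c => ?_
  have hw : slE m μ (ten F κ m c w') = -ten F κ m c w' := by rw [slE_ten, hμ.fw', map_neg]
  have e1 : cj (slE m μ⁻¹) X (ten F κ m c w') = -slE m μ⁻¹ (X (ten F κ m c w')) := by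
    rw [cj_slE_inv_apply, hw, map_neg, map_neg]
  have e2 : cj (slE m μ⁻¹) (cj (slE m μ⁻¹) X) (ten F κ m c w') =
      slE m μ⁻¹ (slE m μ⁻¹ (X (ten F κ m c w'))) := by
    rw [cj_slE_inv_apply, hw, map_neg, map_neg, e1, map_neg, neg_neg]
  rw [LinearMap.sub_apply, LinearMap.add_apply, LinearMap.smul_apply, LinearMap.smul_apply, e1, e2]
  set r := X (ten F κ m c w') with hr
  have hr0 : sl m (pp q w w') r = 0 := by
    have h1 := LinearMap.congr_fun hp (ten F κ m c w')
    rw [LinearMap.add_apply, Module.End.mul_apply, Module.End.mul_apply, sl_ten, pp_apply, hyp.pair,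
      hyp.polar_right, one_smul, zero_smul, add_zero, ← hr] at h1
    exact add_eq_right.1 h1
  -- the relation
  have hop : (1 : Module.End F (κ → F)) - pp q w w' = (-(a : F)) • ((μ : Module.End F (κ → F)) * (1 - pp q w w')) +
      (b : F) • ((μ : Module.End F (κ → F)) * ((μ : Module.End F (κ → F)) * (1 - pp q w w'))) := by
    refine LinearMap.ext fun v => ?_
    have hy : ((1 : Module.End F (κ → F)) - pp q w w') v = LieClassical.OrthTrans.proj q w w' v := by
      rw [LinearMap.sub_apply, Module.End.one_apply, pp_apply, LieClassical.OrthTrans.proj]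
      abel
    rw [LinearMap.add_apply, LinearMap.smul_apply, LinearMap.smul_apply, Module.End.mul_apply, Module.End.mul_apply,
      Module.End.mul_apply, hy, LinearEquiv.coe_coe]
    exact hμ.rel _ (polar_proj_left hyp v) (polar_proj_right hyp v)
  have h3 := LinearMap.congr_fun (congrArg (sl m) hop) r
  rw [sl_sub, sl_one, sl_add, sl_smul, sl_smul, sl_mul, sl_mul, sl_mul, sl_sub, sl_one, ← slE_toEnd] at h3
  simp only [LinearMap.sub_apply, LinearMap.add_apply, LinearMap.smul_apply, Module.End.mul_apply,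
    Module.End.one_apply, hr0, sub_zero, LinearEquiv.coe_coe] at h3
  have hi : ∀ v, slE m μ⁻¹ (slE m μ v) = v := by
    intro v
    rw [map_inv]
    exact LinearEquiv.symm_apply_apply (slE m μ) v
  have h4 := congrArg (fun v => slE m μ⁻¹ (slE m μ⁻¹ v)) h3
  simp only [map_add, map_smul, hi] at h4
  rw [h4]
  module

end Cfsg.Agent.H889.C7O
end

-- part: H889/C7O/Alg
section
/-!
# An abstract cancellation lemma (for the exceptional fields, task 1882)

`R` is an algebra, `P` a predicate on `R` closed under multiplication and inverses (the elements of a group of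
units), `A` a subalgebra commuting with two commuting elements `ol`, `oj` of square zero. `PD S T` says that
`exp (S ol + T oj)` satisfies `P`. Under suitable conditions on automorphisms, `PD S T` only if `S = T = 0`.
-/

set_option autoImplicit false
set_option linter.unusedSectionVars false

namespace Cfsg.Agent.H889.C7O

variable {F : Type*} [Field F] {R : Type*} [Ring R] [Algebra F R]

/-- the truncated exponential -/
noncomputable def ex (F : Type*) [Field F] {R : Type*} [Ring R] [Algebra F R] (D : R) : R :=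
  1 + D + (2 : F)⁻¹ • (D * D)

theorem ex_mul {D D' : R} (h1 : D * (D * D') = 0) (h3 : D * (D' * D') = 0) :
    ex F D * ex F D' = 1 + D + D' + (2 : F)⁻¹ • (D * D) + (2 : F)⁻¹ • (D' * D') + D * D' := by
  simp only [ex, mul_add, add_mul, one_mul, mul_one, mul_smul_comm, smul_mul_assoc, mul_assoc, h1, h3, mul_zero,
    smul_zero, add_zero]
  module

theorem ex_mul_ex (h2 : (2 : F) ≠ 0) {D D' : R} (h1 : D * (D * D') = 0) (h3 : D * (D' * D') = 0)
    (hc : D * D' = D' * D) : ex F D * ex F D' = ex F (D + D') := by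
  rw [ex_mul h1 h3, ex, mul_add, add_mul, add_mul, ← hc]
  have e : D * D' = (2 : F)⁻¹ • (D * D' + D * D') := by
    rw [← two_smul F, smul_smul, inv_mul_cancel₀ h2, one_smul]
  conv_lhs => rw [e]
  module

theorem ex_mul_neg (h2 : (2 : F) ≠ 0) {D : R} (h : D * (D * D) = 0) : ex F D * ex F (-D) = 1 := by
  rw [ex_mul_ex h2 (by rw [mul_neg, mul_neg, h, neg_zero]) (by rw [neg_mul_neg, h]) (by rw [mul_neg, neg_mul]),
    add_neg_cancel, ex]
  simp

theorem ex_comm (h2 : (2 : F) ≠ 0) {D D' : R} (h : ∀ x ∈ ({D, D'} : Set R), ∀ y ∈ ({D, D'} : Set R),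
    ∀ z ∈ ({D, D'} : Set R), x * (y * z) = 0) :
    (ex F D * ex F D') * (ex F (-D) * ex F (-D')) = 1 + (D * D' - D' * D) := by
  have hD : D ∈ ({D, D'} : Set R) := by simp
  have hD' : D' ∈ ({D, D'} : Set R) := by simp
  have e1 := h D hD D hD D hD
  have e2 := h D hD D hD D' hD'
  have e3 := h D hD D' hD' D hD
  have e4 := h D hD D' hD' D' hD'
  have e5 := h D' hD' D hD D hD
  have e6 := h D' hD' D hD D' hD'
  have e7 := h D' hD' D' hD' D hD
  have e8 := h D' hD' D' hD' D' hD'
  rw [ex_mul e2 e4, ex_mul (by simp [e2]) (by simp [e4])]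
  have h5 : ∀ x : R, (2 : F)⁻¹ • x + (2 : F)⁻¹ • x = x := by
    intro x
    rw [← two_smul F, smul_smul, mul_inv_cancel₀ h2, one_smul]
  simp only [mul_add, add_mul, one_mul, mul_one, mul_smul_comm, smul_mul_assoc, mul_assoc, mul_neg, neg_mul,
    neg_neg, e1, e2, e3, e4, e5, e6, e7, e8, smul_zero, add_zero, mul_zero]
  have h6 := h5 (D * D)
  have h7 := h5 (D' * D')
  generalize (2 : F)⁻¹ • (D * D) = a at h6 ⊢
  generalize (2 : F)⁻¹ • (D' * D') = b at h7 ⊢
  rw [← h6, ← h7]
  abel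

/-- The standing assumptions. -/
structure Setup (F : Type*) [Field F] {R : Type*} [Ring R] [Algebra F R] (P : R → Prop) (A : Subalgebra F R)
    (ol oj : R) : Prop where
  two : (2 : F) ≠ 0
  one : P 1
  mul : ∀ X Y, P X → P Y → P (X * Y)
  inv : ∀ X Y, P X → X * Y = 1 → P Y
  cl : ∀ X ∈ A, ol * X = X * ol
  cj : ∀ X ∈ A, oj * X = X * oj
  comm : oj * ol = ol * oj
  l2 : ol * ol = 0
  j2 : oj * oj = 0
  th1 : ∀ Z ∈ A, P (1 + Z * (ol * oj)) → Z = 0
  th2 : ∀ Z ∈ A, P (1 + Z * oj) → Z = 0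
  th3 : ∀ Z ∈ A, P (1 + Z * ol) → Z = 0

/-- the set of pairs -/
def PD (F : Type*) [Field F] {R : Type*} [Ring R] [Algebra F R] (P : R → Prop) (A : Subalgebra F R)
    (ol oj : R) (S T : R) : Prop := S ∈ A ∧ T ∈ A ∧ P (ex F (S * ol + T * oj))

section

variable {P : R → Prop} {A : Subalgebra F R} {ol oj : R}

theorem Setup.dmul (H : Setup F P A ol oj) {S T S' T' : R} (hS' : S' ∈ A) (hT' : T' ∈ A) :
    (S * ol + T * oj) * (S' * ol + T' * oj) = (S * T' + T * S') * (ol * oj) := by
  have e1 : S * ol * (S' * ol) = 0 := by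
    rw [mul_assoc, ← mul_assoc ol, H.cl _ hS', mul_assoc S', H.l2, mul_zero, mul_zero]
  have e2 : S * ol * (T' * oj) = S * T' * (ol * oj) := by
    rw [mul_assoc, ← mul_assoc ol, H.cl _ hT']; simp only [mul_assoc]
  have e3 : T * oj * (S' * ol) = T * S' * (ol * oj) := by
    rw [mul_assoc, ← mul_assoc oj, H.cj _ hS', mul_assoc S', H.comm]; simp only [mul_assoc]
  have e4 : T * oj * (T' * oj) = 0 := by
    rw [mul_assoc, ← mul_assoc oj, H.cj _ hT', mul_assoc T', H.j2, mul_zero, mul_zero]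
  rw [mul_add, add_mul, add_mul, e1, e2, e3, e4, add_mul]
  abel

theorem Setup.tri (H : Setup F P A ol oj) {S T S' T' S'' T'' : R} (hS' : S' ∈ A)
    (hT' : T' ∈ A) (hS'' : S'' ∈ A) (hT'' : T'' ∈ A) :
    (S * ol + T * oj) * ((S' * ol + T' * oj) * (S'' * ol + T'' * oj)) = 0 := by
  rw [H.dmul hS'' hT'']
  have hZ : S' * T'' + T' * S'' ∈ A := A.add_mem (A.mul_mem hS' hT'') (A.mul_mem hT' hS'')
  set Z := S' * T'' + T' * S'' with hZd
  rw [add_mul]
  have e1 : S * ol * (Z * (ol * oj)) = 0 := by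
    rw [mul_assoc, ← mul_assoc ol, H.cl _ hZ, mul_assoc Z, ← mul_assoc ol, H.l2, zero_mul, mul_zero, mul_zero]
  have e2 : T * oj * (Z * (ol * oj)) = 0 := by
    rw [mul_assoc, ← mul_assoc oj, H.cj _ hZ, mul_assoc Z, ← H.comm, ← mul_assoc oj, H.j2, zero_mul, mul_zero,
      mul_zero]
  rw [e1, e2, add_zero]

theorem Setup.add (H : Setup F P A ol oj) {S T S' T' : R} (h : PD F P A ol oj S T)
    (h' : PD F P A ol oj S' T') : PD F P A ol oj (S + S') (T + T') := by
  obtain ⟨hS, hT, hP⟩ := h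
  obtain ⟨hS', hT', hP'⟩ := h'
  refine ⟨A.add_mem hS hS', A.add_mem hT hT', ?_⟩
  set D := S * ol + T * oj with hD
  set D' := S' * ol + T' * oj with hD'
  have t1 : D * (D * D) = 0 := H.tri hS hT hS hT
  have t2 : D' * (D' * D') = 0 := H.tri hS' hT' hS' hT'
  have t3 : D * (D * D') = 0 := H.tri hS hT hS' hT'
  have t4 : D * (D' * D') = 0 := H.tri hS' hT' hS' hT'
  have t5 : D * (D' * D) = 0 := H.tri hS' hT' hS hT
  have t6 : D' * (D * D) = 0 := H.tri hS hT hS hT
  have t7 : D' * (D * D') = 0 := H.tri hS hT hS' hT'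
  have t8 : D' * (D' * D) = 0 := H.tri hS' hT' hS hT
  have i1 : P (ex F (-D)) := H.inv _ _ hP (ex_mul_neg H.two t1)
  have i2 : P (ex F (-D')) := H.inv _ _ hP' (ex_mul_neg H.two t2)
  have hc := H.mul _ _ (H.mul _ _ hP hP') (H.mul _ _ i1 i2)
  rw [ex_comm H.two (by
    intro x hx y hy z hz
    simp only [Set.mem_insert_iff, Set.mem_singleton_iff] at hx hy hz
    rcases hx with rfl | rfl <;> rcases hy with rfl | rfl <;> rcases hz with rfl | rfl <;> assumption)] at hc
  have e1 : D * D' - D' * D = ((S * T' + T * S') - (S' * T + T' * S)) * (ol * oj) := by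
    rw [hD, hD', H.dmul hS' hT', H.dmul hS hT, sub_mul]
  have hZ : (S * T' + T * S') - (S' * T + T' * S) = 0 := by
    refine H.th1 _ (A.sub_mem (A.add_mem (A.mul_mem hS hT') (A.mul_mem hT hS'))
      (A.add_mem (A.mul_mem hS' hT) (A.mul_mem hT' hS))) ?_
    rw [← e1]
    exact hc
  rw [hZ, zero_mul, sub_eq_zero] at e1
  have h5 := H.mul _ _ hP hP'
  rw [ex_mul_ex H.two t3 t4 e1] at h5
  have e : (S + S') * ol + (T + T') * oj = D + D' := by
    rw [hD, hD', add_mul, add_mul]; abel
  rw [e]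
  exact h5

theorem Setup.neg (H : Setup F P A ol oj) {S T : R} (h : PD F P A ol oj S T) : PD F P A ol oj (-S) (-T) := by
  obtain ⟨hS, hT, hP⟩ := h
  refine ⟨A.neg_mem hS, A.neg_mem hT, ?_⟩
  have e : -S * ol + -T * oj = -(S * ol + T * oj) := by rw [neg_mul, neg_mul, neg_add]
  rw [e]
  exact H.inv _ _ hP (ex_mul_neg H.two (H.tri hS hT hS hT))

theorem Setup.zero (H : Setup F P A ol oj) : PD F P A ol oj 0 0 := by
  refine ⟨A.zero_mem, A.zero_mem, ?_⟩
  have : ex F (0 * ol + 0 * oj) = 1 := by simp [ex]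
  rw [this]
  exact H.one

theorem Setup.zero_left (H : Setup F P A ol oj) {T : R} (h : PD F P A ol oj 0 T) : T = 0 := by
  obtain ⟨hS, hT, hP⟩ := h
  refine H.th2 _ hT ?_
  have e : ex F (0 * ol + T * oj) = 1 + T * oj := by
    have h1 := H.dmul (S := 0) (T := T) hS hT
    have e0 : (0 * T + T * 0 : R) = 0 := by simp
    rw [e0, zero_mul (ol * oj)] at h1
    rw [ex, h1, smul_zero, add_zero, zero_mul, zero_add]
  rw [← e]
  exact hP

theorem Setup.zero_right (H : Setup F P A ol oj) {S : R} (h : PD F P A ol oj S 0) : S = 0 := by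
  obtain ⟨hS, hT, hP⟩ := h
  refine H.th3 _ hS ?_
  have e : ex F (S * ol + 0 * oj) = 1 + S * ol := by
    have h1 := H.dmul (S := S) (T := 0) hS hT
    have e0 : (S * 0 + 0 * S : R) = 0 := by simp
    rw [e0, zero_mul (ol * oj)] at h1
    rw [ex, h1, smul_zero, add_zero, zero_mul, add_zero]
  rw [← e]
  exact hP

/-- the pairs as an additive group -/
def Setup.grp (H : Setup F P A ol oj) : AddSubgroup (R × R) where
  carrier := {x | PD F P A ol oj x.1 x.2}
  add_mem' := fun hx hy => H.add hx hy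
  zero_mem' := H.zero
  neg_mem' := fun hx => H.neg hx

theorem Setup.zsmul (H : Setup F P A ol oj) {S T : R} (h : PD F P A ol oj S T) (n : ℤ) :
    PD F P A ol oj (n • S) (n • T) :=
  H.grp.zsmul_mem (x := (S, T)) h n

/-- automorphisms -/
theorem Setup.map (_H : Setup F P A ol oj) (f : R →ₐ[F] R) (hP : ∀ X, P X → P (f X)) (hA : ∀ X ∈ A, f X ∈ A)
    {c d : F} (hl : f ol = c • ol) (hj : f oj = d • oj) {S T : R} (h : PD F P A ol oj S T) :
    PD F P A ol oj (c • f S) (d • f T) := by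
  obtain ⟨hS, hT, hP1⟩ := h
  refine ⟨A.smul_mem (hA _ hS) c, A.smul_mem (hA _ hT) d, ?_⟩
  have h1 := hP _ hP1
  rw [ex, map_add, map_add, map_smul, map_mul, map_one] at h1
  have e : f (S * ol + T * oj) = c • f S * ol + d • f T * oj := by
    rw [map_add, map_mul, map_mul, hl, hj, mul_smul_comm, mul_smul_comm, smul_mul_assoc, smul_mul_assoc]
  rw [e] at h1
  exact h1

theorem Setup.map1 (H : Setup F P A ol oj) (f : R →ₐ[F] R) (hP : ∀ X, P X → P (f X)) (hA : ∀ X ∈ A, f X ∈ A)
    (hl : f ol = ol) (hj : f oj = oj) {S T : R} (h : PD F P A ol oj S T) :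
    PD F P A ol oj (f S) (f T) := by
  have h1 := H.map f hP hA (c := 1) (d := 1) (by rw [hl, one_smul]) (by rw [hj, one_smul]) h
  rwa [one_smul, one_smul] at h1

theorem Setup.sub (H : Setup F P A ol oj) {S T S' T' : R} (h : PD F P A ol oj S T)
    (h' : PD F P A ol oj S' T') : PD F P A ol oj (S - S') (T - T') := by
  rw [sub_eq_add_neg, sub_eq_add_neg]
  exact H.add h (H.neg h')

/-- automorphisms fixing `ol`, `oj` -/
structure G1 (P : R → Prop) (A : Subalgebra F R) (ol oj : R) (f : R →ₐ[F] R) : Prop where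
  hP : ∀ X, P X → P (f X)
  hA : ∀ X ∈ A, f X ∈ A
  hl : f ol = ol
  hj : f oj = oj

theorem add_self_zero (h2 : (2 : F) ≠ 0) {X : R} (h : X + X = 0) : X = 0 := by
  rw [← two_smul F] at h
  exact (smul_eq_zero.1 h).resolve_left h2

theorem Setup.odd_zero (H : Setup F P A ol oj) (τ : R →ₐ[F] R) (hτP : ∀ X, P X → P (τ X))
    (hτA : ∀ X ∈ A, τ X ∈ A) (hτl : τ ol = -ol) (hτj : τ oj = oj) (hτi : ∀ X, τ X = 0 → X = 0) {a b : ℤ}
    (ha : (a : F) ≠ 0) {S T : R} (h : PD F P A ol oj S T) (hS : τ (τ S) = a • τ S + b • S)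
    (hT : τ (τ T) = a • τ T + b • T) : S = 0 ∧ T = 0 := by
  have hm : ∀ {S T : R}, PD F P A ol oj S T → PD F P A ol oj (-τ S) (τ T) := by
    intro S T h
    have h1 := H.map τ hτP hτA (c := -1) (d := 1) (by rw [hτl, neg_one_smul]) (by rw [hτj, one_smul]) h
    rwa [neg_one_smul, one_smul] at h1
  have h1 := hm h
  have h3 := hm h1
  rw [map_neg, neg_neg] at h3
  have h4 := H.sub (H.add h3 (H.zsmul h1 a)) (H.zsmul h b)
  have e1 : τ (τ S) + a • -τ S - b • S = 0 := by rw [hS, smul_neg]; abel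
  have e2 : τ (τ T) + a • τ T - b • T = a • τ T + a • τ T := by rw [hT]; abel
  rw [e1, e2] at h4
  have h5 := add_self_zero (F := F) H.two (H.zero_left h4)
  have h6 : (a : F) • τ T = 0 := by rw [Int.cast_smul_eq_zsmul]; exact h5
  have h7 : T = 0 := hτi _ ((smul_eq_zero.1 h6).resolve_left ha)
  refine ⟨?_, h7⟩
  rw [h7] at h
  exact H.zero_right h

theorem Setup.even_zero (H : Setup F P A ol oj) (τ : R →ₐ[F] R) (hτP : ∀ X, P X → P (τ X))
    (hτA : ∀ X ∈ A, τ X ∈ A) (hτl : τ ol = -ol) (hτj : τ oj = oj) {o : R} (hτo : τ o = -o)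
    (s' : R →ₐ[F] R) (hs' : G1 P A ol oj s') {B C B' C' : R}
    (h : PD F P A ol oj (B + C * o) (B' + C' * o))
    (hB : τ B = B) (hC : τ C = C) (hB' : τ B' = B') (hC' : τ C' = C')
    (sB : s' B = B) (sC : s' C = C) (sB' : s' B' = B') (sC' : s' C' = C')
    (c1 : C * (o - s' o) = 0 → C = 0) (c2 : C' * (o - s' o) = 0 → C' = 0) :
    B + C * o = 0 ∧ B' + C' * o = 0 := by
  have h1 := H.map τ hτP hτA (c := -1) (d := 1) (by rw [hτl, neg_one_smul]) (by rw [hτj, one_smul]) h
  rw [neg_one_smul, one_smul, map_add, map_add, map_mul, map_mul, hB, hC, hB', hC', hτo] at h1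
  have h3 := H.sub h h1
  have h4 := H.add h h1
  have e1 : B + C * o - -(B + C * -o) = B + B := by rw [mul_neg]; abel
  have e2 : B' + C' * o - (B' + C' * -o) = (C' + C') * o := by rw [mul_neg, add_mul]; abel
  have e3 : B + C * o + -(B + C * -o) = (C + C) * o := by rw [mul_neg, add_mul]; abel
  have e4 : B' + C' * o + (B' + C' * -o) = B' + B' := by rw [mul_neg]; abel
  rw [e1, e2] at h3
  rw [e3, e4] at h4
  have hz : ∀ {X : R}, X + X = 0 → X = 0 := fun h => add_self_zero (F := F) H.two h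
  have h5 := H.sub h3 (H.map1 s' hs'.hP hs'.hA hs'.hl hs'.hj h3)
  have h6 := H.sub h4 (H.map1 s' hs'.hP hs'.hA hs'.hl hs'.hj h4)
  rw [map_add, map_mul, map_add, sB, sC', sub_self, ← mul_sub] at h5
  rw [map_add, map_mul, map_add, sC, sB', sub_self, ← mul_sub] at h6
  have h7 := H.zero_left h5
  have h8 := H.zero_right h6
  rw [add_mul] at h7 h8
  have hC0 := c1 (hz h8)
  have hC0' := c2 (hz h7)
  rw [hC0', add_zero, zero_mul] at h3
  rw [hC0, add_zero, zero_mul] at h4
  have hB0 := hz (H.zero_right h3)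
  have hB0' := hz (H.zero_left h4)
  rw [hB0, hC0, hB0', hC0']
  simp

/-- **The cancellation lemma.** -/
theorem Setup.dd_zero (H : Setup F P A ol oj) {I : Type*} [Finite I] (s : I → (R →ₐ[F] R))
    (hs : ∀ i, G1 P A ol oj (s i)) (hcomm : ∀ i k X, s i (s k X) = s k (s i X))
    (hnil : ∀ i, ∃ n : ℕ, ∀ X, (fun β => s i β - β)^[n] X = 0)
    (t : R →ₐ[F] R) (ht : G1 P A ol oj t) (ht2 : ∀ X, t (t X) = X)
    (hts : ∀ X, (∀ i, s i X = X) → ∀ i, s i (t X) = t X)
    (τ : R →ₐ[F] R) (hτP : ∀ X, P X → P (τ X))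
    (hτA : ∀ X ∈ A, τ X ∈ A) (hτl : τ ol = -ol) (hτj : τ oj = oj) (hτi : ∀ X, τ X = 0 → X = 0) {a b : ℤ}
    (ha : (a : F) ≠ 0) (odd : ∀ X ∈ A, (∀ i, s i X = X) → t X = -X → τ (τ X) = a • τ X + b • X)
    {o : R} (hτo : τ o = -o) (s' : R →ₐ[F] R) (hs' : G1 P A ol oj s')
    (even : ∀ X ∈ A, (∀ i, s i X = X) → t X = X → ∃ B C, X = B + C * o ∧ τ B = B ∧ τ C = C ∧ s' B = B ∧
      s' C = C ∧ (C * (o - s' o) = 0 → C = 0))
    {S T : R} (h : PD F P A ol oj S T) : S = 0 ∧ T = 0 := by
  classical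
  have key : ∀ S T, PD F P A ol oj S T → (∀ i, s i S = S) → (∀ i, s i T = T) → S = 0 ∧ T = 0 := by
    intro S T h hS hT
    have h1 := H.map1 t ht.hP ht.hA ht.hl ht.hj h
    have h3 := H.add h h1
    have h4 := H.sub h h1
    have tS := hts S hS
    have tT := hts T hT
    have k1 : S + t S = 0 ∧ T + t T = 0 := by
      obtain ⟨B, C, e1, b1, b2, b3, b4, b5⟩ := even (S + t S) h3.1 (fun i => by rw [map_add, hS, tS])
        (by rw [map_add, ht2, add_comm])
      obtain ⟨B', C', e1', b1', b2', b3', b4', b5'⟩ := even (T + t T) h3.2.1 (fun i => by rw [map_add, hT, tT])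
        (by rw [map_add, ht2, add_comm])
      rw [e1, e1'] at h3 ⊢
      exact H.even_zero τ hτP hτA hτl hτj hτo s' hs' h3 b1 b2 b1' b2' b3 b4 b3' b4' b5 b5'
    have k2 : S - t S = 0 ∧ T - t T = 0 :=
      H.odd_zero τ hτP hτA hτl hτj hτi ha h4
        (odd _ h4.1 (fun i => by rw [map_sub, hS, tS]) (by rw [map_sub, ht2, neg_sub]))
        (odd _ h4.2.1 (fun i => by rw [map_sub, hT, tT]) (by rw [map_sub, ht2, neg_sub]))
    have hz : ∀ {X : R}, X + X = 0 → X = 0 := fun h => add_self_zero (F := F) H.two h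
    refine ⟨hz ?_, hz ?_⟩
    · have := congrArg₂ (· + ·) k1.1 k2.1
      simp only [add_zero] at this
      rw [← this]; abel
    · have := congrArg₂ (· + ·) k1.2 k2.2
      simp only [add_zero] at this
      rw [← this]; abel
  by_contra hcon
  have := Fintype.ofFinite I
  have hit : ∀ i (n : ℕ) (x : R × R), (fun x : R × R => (s i x.1 - x.1, s i x.2 - x.2))^[n] x =
      ((fun β => s i β - β)^[n] x.1, (fun β => s i β - β)^[n] x.2) := by
    intro i n x
    induction n with
    | zero => rfl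
    | succ n ih => rw [Function.iterate_succ_apply', Function.iterate_succ_apply', Function.iterate_succ_apply', ih]
  obtain ⟨x, hx, hx0, hxD⟩ := Cfsg.Agent.H883.C7.exists_common
    (fun i (x : R × R) => (s i x.1 - x.1, s i x.2 - x.2))
    (fun i k x => by
      refine Prod.ext ?_ ?_
      · show s i (s k x.1 - x.1) - (s k x.1 - x.1) = s k (s i x.1 - x.1) - (s i x.1 - x.1)
        rw [map_sub, map_sub, hcomm]; abel
      · show s i (s k x.2 - x.2) - (s k x.2 - x.2) = s k (s i x.2 - x.2) - (s i x.2 - x.2)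
        rw [map_sub, map_sub, hcomm]; abel)
    {x | PD F P A ol oj x.1 x.2} {0} (Set.mem_singleton _)
    (fun i x hx => H.sub (H.map1 (s i) (hs i).hP (hs i).hA (hs i).hl (hs i).hj hx) hx)
    (fun i x hx => by
      rw [Set.mem_singleton_iff] at hx ⊢
      rw [hx]
      refine Prod.ext ?_ ?_
      · show s i 0 - 0 = 0
        rw [map_zero, sub_zero]
      · show s i 0 - 0 = 0
        rw [map_zero, sub_zero])
    (fun i => by
      obtain ⟨n, hn⟩ := hnil i
      exact ⟨n, fun x _ => by rw [hit, hn, hn]; rfl⟩)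
    (a := (S, T)) h (by
      rw [Set.mem_singleton_iff]
      intro h0
      exact hcon ⟨congrArg Prod.fst h0, congrArg Prod.snd h0⟩) Finset.univ
  have h1 : ∀ i, s i x.1 = x.1 := fun i => by
    have := congrArg Prod.fst (Set.mem_singleton_iff.1 (hxD i (Finset.mem_univ i)))
    exact sub_eq_zero.1 this
  have h3 : ∀ i, s i x.2 = x.2 := fun i => by
    have := congrArg Prod.snd (Set.mem_singleton_iff.1 (hxD i (Finset.mem_univ i)))
    exact sub_eq_zero.1 this
  obtain ⟨e1, e2⟩ := key _ _ hx h1 h3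
  exact hx0 (Set.mem_singleton_iff.2 (Prod.ext e1 e2))

/-- From an element `(1 + T oj) (1 + S ol)` with `T = T0 + T1 ol` to a pair. -/
theorem Setup.of_b (H : Setup F P A ol oj) (x : R →ₐ[F] R) (hxP : ∀ X, P X → P (x X)) (xl : x ol = -ol)
    (xj : x oj = -oj) {T0 T1 S : R} (h0 : T0 ∈ A) (h1 : T1 ∈ A) (hS : S ∈ A) (x0 : x T0 = T0) (x1 : x T1 = T1)
    (xS : x S = S) (hb : P ((1 + (T0 + T1 * ol) * oj) * (1 + S * ol))) : PD F P A ol oj S T0 := by
  have e1 : (1 + (T0 + T1 * ol) * oj) * (1 + S * ol) =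
      1 + (S * ol + T0 * oj) + (T1 + T0 * S) * (ol * oj) := by
    have f1 : T0 * oj * (S * ol) = T0 * S * (ol * oj) := by
      rw [mul_assoc, ← mul_assoc oj, H.cj _ hS, mul_assoc S, H.comm]; simp only [mul_assoc]
    have f2 : T1 * ol * oj * (S * ol) = 0 := by
      have : oj * (S * ol) = S * (ol * oj) := by rw [← mul_assoc oj, H.cj _ hS, mul_assoc S, H.comm]
      rw [mul_assoc, this, mul_assoc, ← mul_assoc ol, H.cl _ hS, mul_assoc S, ← mul_assoc ol, H.l2, zero_mul,
        mul_zero, mul_zero]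
    have f3 : ∀ U W : R, (1 + U) * (1 + W) = 1 + (W + U) + U * W := by
      intro U W
      rw [mul_add, mul_one, add_mul, one_mul]; abel
    rw [f3, add_mul T0, add_mul (T0 * oj), f1, f2, add_mul T1, mul_assoc T1 ol oj]
    abel
  rw [e1] at hb
  have hb' := hxP _ hb
  have e2 : x (1 + (S * ol + T0 * oj) + (T1 + T0 * S) * (ol * oj)) =
      1 + (-(S * ol + T0 * oj)) + (T1 + T0 * S) * (ol * oj) := by
    simp only [map_add, map_mul, map_one, x0, x1, xS, xl, xj, mul_neg, neg_mul, neg_neg]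
    abel
  rw [e2] at hb'
  have hp := H.mul _ _ hb hb'
  have hZ : T1 + T0 * S ∈ A := A.add_mem h1 (A.mul_mem h0 hS)
  have hd := H.dmul (S := S) (T := T0) hS h0
  have t1 : (S * ol + T0 * oj) * ((T1 + T0 * S) * (ol * oj)) = 0 := by
    set Z := T1 + T0 * S
    rw [add_mul]
    have e1 : S * ol * (Z * (ol * oj)) = 0 := by
      rw [mul_assoc, ← mul_assoc ol, H.cl _ hZ, mul_assoc Z, ← mul_assoc ol, H.l2, zero_mul, mul_zero, mul_zero]
    have e2 : T0 * oj * (Z * (ol * oj)) = 0 := by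
      rw [mul_assoc, ← mul_assoc oj, H.cj _ hZ, mul_assoc Z, ← H.comm, ← mul_assoc oj, H.j2, zero_mul, mul_zero,
        mul_zero]
    rw [e1, e2, add_zero]
  have t2 : (T1 + T0 * S) * (ol * oj) * (S * ol + T0 * oj) = 0 := by
    set Z := T1 + T0 * S
    have e1 : ol * oj * (S * ol) = 0 := by
      rw [mul_assoc, ← mul_assoc oj, H.cj _ hS, mul_assoc S, H.comm, ← mul_assoc ol, H.cl _ hS, mul_assoc S,
        ← mul_assoc ol, H.l2, zero_mul, mul_zero]
    have e2 : ol * oj * (T0 * oj) = 0 := by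
      rw [mul_assoc, ← mul_assoc oj, H.cj _ h0, mul_assoc T0, H.j2, mul_zero, mul_zero]
    rw [mul_assoc, mul_add, e1, e2, add_zero, mul_zero]
  have t3 : (T1 + T0 * S) * (ol * oj) * ((T1 + T0 * S) * (ol * oj)) = 0 := by
    set Z := T1 + T0 * S
    have e1 : ol * oj * (Z * (ol * oj)) = 0 := by
      rw [mul_assoc, ← mul_assoc oj, H.cj _ hZ, mul_assoc Z, ← H.comm, ← mul_assoc oj, H.j2, zero_mul, mul_zero,
        mul_zero]
    rw [mul_assoc, e1, mul_zero]
  have e3 : (1 + (S * ol + T0 * oj) + (T1 + T0 * S) * (ol * oj)) *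
      (1 + (-(S * ol + T0 * oj)) + (T1 + T0 * S) * (ol * oj)) =
      1 + ((T1 + T0 * S) + (T1 + T0 * S) - (S * T0 + T0 * S)) * (ol * oj) := by
    rw [sub_mul, ← hd, add_mul (T1 + T0 * S)]
    generalize S * ol + T0 * oj = D at t1 t2 t3 ⊢
    generalize (T1 + T0 * S) * (ol * oj) = Y at t1 t2 t3 ⊢
    simp only [mul_add, add_mul, mul_one, one_mul, mul_neg, t1, t2, t3]
    abel
  rw [e3] at hp
  have hz := H.th1 _ (A.sub_mem (A.add_mem hZ hZ) (A.add_mem (A.mul_mem hS h0) (A.mul_mem h0 hS))) hp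
  refine ⟨hS, h0, ?_⟩
  have e4 : (2 : F)⁻¹ • ((S * ol + T0 * oj) * (S * ol + T0 * oj)) = (T1 + T0 * S) * (ol * oj) := by
    rw [hd, ← sub_eq_zero.1 hz, ← two_smul F, smul_mul_assoc, smul_smul, inv_mul_cancel₀ H.two, one_smul]
  rw [ex, e4]
  exact hb

end

end Cfsg.Agent.H889.C7O
end

-- part: H889/C7O/Main
section
/-!
# The main lemma for the exceptional fields (task 1882)

`main_zero` : if `(1 + T ω_j) (1 + S ω_l)` is in the thin overgroup `M`, `T` commuting with slot `j` and `S` with the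
slots `j` and `l`, then `S = 0`.
-/

set_option autoImplicit false
set_option linter.unusedSectionVars false

namespace Cfsg.Agent.H889.C7O

open QuadraticMap hiding proj
open Cfsg.Agent.LieClassical.OrthCore Cfsg.Agent.LieClassical.OrthTrans
open Cfsg.Agent.H882.Ten Cfsg.Agent.LieClassical.OrthFinite
open Cfsg.Agent.H883.C7

section gen

/-- conjugation as an algebra homomorphism -/
def cjA {F : Type*} [Field F] {V : Type*} [AddCommGroup V] [Module F V] (k : V ≃ₗ[F] V) :
    Module.End F V →ₐ[F] Module.End F V :=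
  AlgHom.ofLinearMap { toFun := cj k, map_add' := cj_add' k, map_smul' := cj_smul' k } (cj_one' k) (cj_mul' k)

theorem cjA_apply {F : Type*} [Field F] {V : Type*} [AddCommGroup V] [Module F V] (k : V ≃ₗ[F] V)
    (X : Module.End F V) : cjA k X = cj k X := rfl

theorem neg_one_smul_end {F : Type*} [Field F] {V : Type*} [AddCommGroup V] [Module F V] (X : Module.End F V) :
    (-1 : F) • X = -X := neg_one_smul F X

variable {F : Type*} [Field F] {R : Type*} [Ring R] [Algebra F R]

theorem b_aux {P : R → Prop} (hmul : ∀ X Y, P X → P Y → P (X * Y)) (hinv : ∀ X Y, P X → X * Y = 1 → P Y)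
    {oj ol S T T' : R} (hj : oj * oj = 0) (hl : ol * ol = 0) (hT : oj * T = T * oj)
    (hS : ol * S = S * ol) (h : P ((1 + T * oj) * (1 + S * ol))) (h' : P ((1 + T' * oj) * (1 + S * ol))) :
    P (1 + (T' - T) * oj) := by
  have e1 : ∀ X, oj * X = X * oj → (1 + X * oj) * (1 + -(X * oj)) = 1 := by
    intro X hX
    have : X * oj * (X * oj) = 0 := by rw [mul_assoc, ← mul_assoc oj, hX, mul_assoc X, hj, mul_zero, mul_zero]
    rw [mul_add, mul_one, mul_neg, add_mul, one_mul, this]; simp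
  have e2 : (1 + S * ol) * (1 + -(S * ol)) = 1 := by
    have : S * ol * (S * ol) = 0 := by rw [mul_assoc, ← mul_assoc ol, hS, mul_assoc S, hl, mul_zero, mul_zero]
    rw [mul_add, mul_one, mul_neg, add_mul, one_mul, this]; simp
  have e3 : (1 + T * oj) * (1 + S * ol) * ((1 + -(S * ol)) * (1 + -(T * oj))) = 1 := by
    rw [mul_assoc, ← mul_assoc (1 + S * ol), e2, one_mul, e1 T hT]
  have h3 := hmul _ _ h' (hinv _ _ h e3)
  have e4 : (1 + T' * oj) * (1 + S * ol) * ((1 + -(S * ol)) * (1 + -(T * oj))) = 1 + (T' - T) * oj := by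
    rw [mul_assoc, ← mul_assoc (1 + S * ol), e2, one_mul]
    have : T' * oj * (T * oj) = 0 := by rw [mul_assoc, ← mul_assoc oj, hT, mul_assoc T, hj, mul_zero, mul_zero]
    rw [mul_add, mul_one, add_mul, one_mul, mul_neg, this, sub_mul]
    abel
  rwa [e4] at h3

theorem comm_aux {K P X : R} (hK : K = P + P - 1) (h2 : (2 : F) ≠ 0) (h : K * X = X * K) : P * X = X * P := by
  rw [hK] at h
  have h3 : (2 : F) • (P * X) = (2 : F) • (X * P) := by
    have e1 : (2 : F) • (P * X) = (P + P - 1) * X + X := by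
      rw [sub_mul, add_mul, one_mul, two_smul]; abel
    have e2 : (2 : F) • (X * P) = X * (P + P - 1) + X := by
      rw [mul_sub, mul_add, mul_one, two_smul]; abel
    rw [e1, e2, h]
  have h5 := congrArg ((2 : F)⁻¹ • ·) h3
  simp only [smul_smul, inv_mul_cancel₀ h2, one_smul] at h5
  exact h5

theorem anti_aux {K P X : R} (hK : K = P + P - 1) (h2 : (2 : F) ≠ 0) (h : K * X = -X * K) :
    P * X + X * P = X := by
  rw [hK] at h
  have h3 : (2 : F) • (P * X + X * P) = (2 : F) • X := by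
    have e1 : (2 : F) • (P * X + X * P) = (P + P - 1) * X - -X * (P + P - 1) + (X + X) := by
      rw [sub_mul, add_mul, one_mul, two_smul, mul_sub, mul_add, mul_one, neg_mul]; abel
    rw [e1, h, sub_self, zero_add, two_smul]
  have h5 := congrArg ((2 : F)⁻¹ • ·) h3
  simp only [smul_smul, inv_mul_cancel₀ h2, one_smul] at h5
  exact h5

theorem decomp_aux {f A C o : R} (h1 : f * (A + C * o) = (A + C * o) * f) (h2 : f * o = o * f) :
    f * A - A * f + (f * C - C * f) * o = 0 := by
  have e : f * A - A * f + (f * C - C * f) * o = f * (A + C * o) - (A + C * o) * f := by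
    rw [sub_mul, mul_add, add_mul, mul_assoc C f o, h2]
    simp only [mul_assoc]
    abel
  rw [e, h1, sub_self]

end gen

variable {F : Type*} [Field F] {κ : Type*} [Fintype κ] [DecidableEq κ] {ι : Type*} [Fintype ι] [DecidableEq ι]
  {q : QuadraticForm F (κ → F)} {w w' : κ → F}

/-- the involution `2 pp - 1` -/
noncomputable def th (q : QuadraticForm F (κ → F)) {w w' : κ → F} (hyp : Hyp q w w') : (κ → F) ≃ₗ[F] (κ → F) :=
  LinearEquiv.ofInvolutive (pp q w w' + pp q w w' - 1) (by
    intro v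
    simp only [LinearMap.sub_apply, LinearMap.add_apply, Module.End.one_apply, pp_apply, polar_add_right,
      polar_sub_right, polar_smul_right, hyp.pair, hyp.pair', hyp.polar_left, hyp.polar_right, smul_eq_mul]
    module)

theorem th_coe (hyp : Hyp q w w') : ((th q hyp : (κ → F) ≃ₗ[F] (κ → F)) : Module.End F (κ → F)) =
    pp q w w' + pp q w w' - 1 := by
  refine LinearMap.ext fun v => ?_
  rfl

theorem th_apply (hyp : Hyp q w w') (v : κ → F) :
    th q hyp v = (2 * polar q w v) • w' + (2 * polar q w' v) • w - v := by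
  have := LinearMap.congr_fun (th_coe hyp) v
  rw [LinearEquiv.coe_coe] at this
  rw [this, LinearMap.sub_apply, LinearMap.add_apply, Module.End.one_apply, pp_apply]
  module

theorem th_w (hyp : Hyp q w w') : th q hyp w = w := by
  rw [th_apply, hyp.polar_left, hyp.pair']
  module

theorem th_mul (hyp : Hyp q w w') : th q hyp * th q hyp = 1 := by
  refine LinearEquiv.ext fun v => ?_
  exact (th q hyp).symm_apply_apply v

theorem th_mem_O (h2 : (2 : F) ≠ 0) (hyp : Hyp q w w') : th q hyp ∈ O q := by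
  refine mem_O_of_polar h2 fun x y => ?_
  simp only [th_apply, polar_add_left, polar_sub_left, polar_smul_left, polar_add_right, polar_sub_right,
    polar_smul_right, hyp.pair, hyp.pair', hyp.polar_left, hyp.polar_right, smul_eq_mul, polar_comm q x w,
    polar_comm q x w']
  ring

/-! ### the setup -/

variable {M : Subgroup (((ι → κ) → F) ≃ₗ[F] ((ι → κ) → F))}

theorem cj_om_fix (i : ι) {g : (κ → F) ≃ₗ[F] (κ → F)} (hg : g ∈ O q) (hw : g w = w) :
    cj (slE i g) (sl i (om q w)) = sl i (om q w) := by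
  rw [cj_slE_sl, cj_om hg, hw]

theorem CC_decomp (hyp : Hyp q w w') {m l : ι} {A C : Module.End F ((ι → κ) → F)}
    (hA : A ∈ CC F κ m) (hC : C ∈ CC F κ m) (h : A + C * sl m (om q w) ∈ CC F κ l) (hlm : l ≠ m) :
    A ∈ CC F κ l ∧ C ∈ CC F κ l := by
  have key : ∀ f : Module.End F (κ → F), sl l f * A - A * sl l f = 0 ∧ sl l f * C - C * sl l f = 0 := by
    intro f
    have hf : (sl l f : Module.End F ((ι → κ) → F)) ∈ CC F κ m := sl_mem_CC (Ne.symm hlm) f
    refine CC_indep hyp (i := m) (sub_mem (mul_mem hf hA) (mul_mem hA hf))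
      (sub_mem (mul_mem hf hC) (mul_mem hC hf)) ?_
    have h1 := mem_CC.1 h f
    have h2 : (sl l f : Module.End F ((ι → κ) → F)) * sl m (om q w) = sl m (om q w) * sl l f :=
      sl_comm hlm f _
    exact decomp_aux h1 h2
  exact ⟨mem_CC.2 fun f => sub_eq_zero.1 (key f).1, mem_CC.2 fun f => sub_eq_zero.1 (key f).2⟩

/-- The abstract setup holds for two slots. -/
theorem setup (h2 : (2 : F) ≠ 0) (hq : Nondeg q) (hT : Thin q M) (hyp : Hyp q w w') {l j : ι} (hlj : l ≠ j) :
    Setup F (IM M) (CC F κ l ⊓ CC F κ j) (sl l (om q w)) (sl j (om q w)) where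
  two := h2
  one := IM.one
  mul := fun _ _ => IM.mul
  inv := fun _ _ => IM.inv
  cl := fun _ hX => mem_CC.1 (Algebra.mem_inf.1 hX).1 _
  cj := fun _ hX => mem_CC.1 (Algebra.mem_inf.1 hX).2 _
  comm := sl_comm (Ne.symm hlj) _ _
  l2 := sl_om_sq hyp.left l
  j2 := sl_om_sq hyp.left j
  th1 := fun Z hZ h => by
    rw [← mul_assoc] at h
    exact CC_om hyp (Algebra.mem_inf.1 hZ).1
      (thin_end h2 hq hT hyp (mul_mem (Algebra.mem_inf.1 hZ).2 (sl_mem_CC (Ne.symm hlj) _)) h)
  th2 := fun _ hZ h => thin_end h2 hq hT hyp (Algebra.mem_inf.1 hZ).2 h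
  th3 := fun _ hZ h => thin_end h2 hq hT hyp (Algebra.mem_inf.1 hZ).1 h

/-- conjugation by an element of a third slot -/
theorem g1_of {l j m : ι} (hml : m ≠ l) (hmj : m ≠ j) {g : (κ → F) ≃ₗ[F] (κ → F)} (hg : slE m g ∈ M) :
    G1 (IM M) (CC F κ l ⊓ CC F κ j) (sl l (om q w)) (sl j (om q w)) (cjA (slE m g)) where
  hP := fun _ hX => hX.cj hg
  hA := fun _ hX => Algebra.mem_inf.2 ⟨cj_slE_mem m g (Algebra.mem_inf.1 hX).1,
    cj_slE_mem m g (Algebra.mem_inf.1 hX).2⟩
  hl := cj_slE_sl_ne hml g _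
  hj := cj_slE_sl_ne hmj g _

theorem third {i j : ι} (hc : 3 ≤ Fintype.card ι) (_h : i ≠ j) : ∃ m, m ≠ i ∧ m ≠ j := by
  classical
  by_contra hcon
  push Not at hcon
  have h1 : (Finset.univ : Finset ι) ⊆ {i, j} := by
    intro m _
    by_cases hm : m = i
    · simp [hm]
    · simp [hcon m hm]
  have h2 := Finset.card_le_card h1
  have h3 : ({i, j} : Finset ι).card ≤ 2 := Finset.card_le_two
  rw [Finset.card_univ] at h2
  omega

/-- the twist in two slots is in `M` -/
theorem twist_mem [Finite F] (h2 : (2 : F) ≠ 0) (hG : Good (QT q ι)) (hM : Over q M) {μ : (κ → F) ≃ₗ[F] (κ → F)}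
    {a b : ℤ} (hμ : Tw q w w' μ a b) (hc : 3 ≤ Fintype.card ι) {i j : ι} (hij : i ≠ j) :
    slE i μ⁻¹ * slE j μ ∈ M := by
  obtain ⟨c, hci, hcj⟩ := third hc hij
  -- `y = μ_c μ_i⁻¹`
  have hy : slE c μ * slE i μ⁻¹ ∈ O (QT q ι) := by
    have e : slE c μ * slE i μ⁻¹ = opE (Function.update (Pi.mulSingle c μ) i μ⁻¹) := by
      refine tp_extE fun x => ?_
      rw [LinearEquiv.mul_apply, slE_tp, slE_tp, opE_tp]
      congr 1
      funext n
      by_cases hn : n = i
      · subst hn
        rw [Function.update_of_ne (Ne.symm hci), Function.update_self, Function.update_self]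
      · by_cases hn' : n = c
        · subst hn'
          rw [Function.update_self, Function.update_of_ne hn, Function.update_of_ne hn, Pi.mulSingle_eq_same]
        · rw [Function.update_of_ne hn', Function.update_of_ne hn, Function.update_of_ne hn,
            Pi.mulSingle_eq_of_ne hn']
          rfl
    rw [e]
    refine opE_mem_O_of_sim h2 (c := Function.update (Function.update (fun _ => 1) c (-1)) i (-1)) ?_ ?_
    · intro n x y
      by_cases hn : n = i
      · subst hn
        rw [Function.update_self, Function.update_self]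
        exact hμ.inv_sim x y
      · rw [Function.update_of_ne hn, Function.update_of_ne hn]
        by_cases hn' : n = c
        · subst hn'
          rw [Pi.mulSingle_eq_same, Function.update_self]
          exact hμ.sim x y
        · rw [Pi.mulSingle_eq_of_ne hn', Function.update_of_ne hn', one_mul]
          rfl
    · rw [Finset.prod_update_of_mem (Finset.mem_univ i), ← Finset.mul_prod_erase (Finset.univ \ {i}) _
        (a := c) (by simp [hci]), Function.update_self, Finset.prod_eq_one]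
      · norm_num
      · intro n hn
        rw [Function.update_of_ne]
        simp at hn
        exact hn.1
  have hs := pe_mem_O (q := q) (ι := ι) h2 (Equiv.swap i j)
  have e : slE i μ⁻¹ * slE j μ = (slE c μ * slE i μ⁻¹) * pe (Equiv.swap i j) * (slE c μ * slE i μ⁻¹)⁻¹ *
      (pe (Equiv.swap i j))⁻¹ := by
    have h3 : pe (Equiv.swap i j) * (slE c μ * slE i μ⁻¹)⁻¹ * (pe (Equiv.swap i j))⁻¹ =
        slE (F := F) j μ * slE c μ⁻¹ := by
      rw [mul_inv_rev, ← map_inv, ← map_inv, inv_inv]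
      have h4 := pe_conj_slE (Equiv.swap i j) i μ
      have h5 := pe_conj_slE (Equiv.swap i j) c μ⁻¹
      rw [Equiv.swap_apply_left] at h4
      rw [Equiv.swap_apply_of_ne_of_ne hci hcj] at h5
      calc pe (Equiv.swap i j) * (slE i μ * slE c μ⁻¹) * (pe (Equiv.swap i j))⁻¹
          = (pe (Equiv.swap i j) * slE i μ * (pe (Equiv.swap i j))⁻¹) *
            (pe (Equiv.swap i j) * slE c μ⁻¹ * (pe (Equiv.swap i j))⁻¹) := by group
        _ = _ := by rw [h4, h5]
    rw [mul_assoc, mul_assoc, ← mul_assoc (pe (Equiv.swap i j)), h3, mul_assoc, ← slE_comm hcj, ← mul_assoc (slE i μ⁻¹),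
      slE_comm (Ne.symm hci), mul_assoc (slE c μ⁻¹), ← mul_assoc, ← map_mul, mul_inv_cancel, map_one, one_mul]
  refine hM.2 _ ?_ ?_
  · rw [e, ← hG.commutator_eq_E]
    exact Subgroup.commutator_mem_commutator hy hs
  · rw [slE_eq, slE_eq, ← map_mul]
    exact opE_isMono _

theorem hd_of (H : Hyp7 q) (hyp : Hyp q w w') : ∃ z, polar q w z = 0 ∧ polar q w' z = 0 ∧ q z ≠ 0 :=
  exists_nonsing_perp H.nd (by rw [Module.finrank_fintype_fun_eq_card]; exact H.three) hyp

theorem slE_th_toEnd (hyp : Hyp q w w') (m : ι) :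
    ((slE m (th q hyp) : ((ι → κ) → F) ≃ₗ[F] ((ι → κ) → F)) : Module.End F ((ι → κ) → F)) =
      sl m (pp q w w') + sl m (pp q w w') - 1 := by
  rw [slE_toEnd, th_coe, sl_sub, sl_add, sl_one]

/-- `θ_m θ_j ∈ M` -/
theorem th_mem [Finite F] (h2 : (2 : F) ≠ 0) (hG : Good (QT q ι)) (hM : Over q M) (hyp : Hyp q w w') (m j : ι) :
    slE m (th q hyp) * slE j (th q hyp) ∈ M := by
  refine hM.2 _ (slE_mul_slE_mem_E h2 hG m j (th_mem_O h2 hyp)) ?_
  rw [slE_eq, slE_eq, ← map_mul]
  exact opE_isMono _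

theorem cj_th_pair_self (hyp : Hyp q w w') {m j : ι} {X : Module.End F ((ι → κ) → F)} (hX : X ∈ CC F κ j) :
    cj (slE m (th q hyp) * slE j (th q hyp)) X = cj (slE m (th q hyp)) X := by
  rw [← cj_cj, cj_slE_self _ hX]

theorem cj_th_pair_om (h2 : (2 : F) ≠ 0) (hyp : Hyp q w w') (m j i : ι) :
    cj (slE m (th q hyp) * slE j (th q hyp)) (sl i (om q w)) = sl i (om q w) := by
  have h : ∀ n : ι, cj (slE n (th q hyp)) (sl i (om q w)) = sl i (om q w) := by
    intro n
    by_cases hn : n = i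
    · subst hn
      exact cj_om_fix n (th_mem_O h2 hyp) (th_w hyp)
    · exact cj_slE_sl_ne hn _ _
  rw [← cj_cj, h, h]

theorem siegel_comm {w z z' : κ → F} (hw : q w = 0) (hz : polar q w z = 0) (hz' : polar q w z' = 0) :
    siegel q w z hw hz * siegel q w z' hw hz' = siegel q w z' hw hz' * siegel q w z hw hz := by
  rw [siegel_mul hw hz hz' (by rw [polar_add_right, hz, hz', add_zero]),
    siegel_mul hw hz' hz (by rw [polar_add_right, hz, hz', add_zero])]
  ext v
  rw [siegel_apply, siegel_apply, add_comm z z']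

/-- the pairs are trivial -/
theorem main_dd [Finite F] (H : Hyp7 q) (hG : Good (QT q ι)) (hM : Over q M) (hT : Thin q M) (hyp : Hyp q w w')
    {μ : (κ → F) ≃ₗ[F] (κ → F)} {a b : ℤ} (hμ : Tw q w w' μ a b) (hc : 3 ≤ Fintype.card ι) {l j : ι} (hlj : l ≠ j)
    {S T : Module.End F ((ι → κ) → F)}
    (h : PD F (IM M) (CC F κ l ⊓ CC F κ j) (sl l (om q w)) (sl j (om q w)) S T) : S = 0 ∧ T = 0 := by
  obtain ⟨m, hml, hmj⟩ := third hc hlj
  obtain ⟨z0, hz0, hz0', hzn⟩ := hd_of H hyp
  have hd : ∃ z, polar q w z = 0 ∧ polar q w' z = 0 ∧ q z ≠ 0 := ⟨z0, hz0, hz0', hzn⟩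
  have h2 := H.two
  let A := CC F κ l ⊓ CC F κ j
  -- the fixed operators
  have hNC : ∀ X : Module.End F ((ι → κ) → F), (∀ z : {z : κ → F // polar q w z = 0},
      cjA (slE m (siegel q w z.1 hyp.left z.2)) X = X) → NC q w m X := fun X hX =>
    NC.of_siegel h2 hyp.left fun z hz => hX ⟨z, hz⟩
  have hmem1 : ∀ {X : Module.End F ((ι → κ) → F)}, X ∈ CC F κ l ⊓ CC F κ j → X ∈ CC F κ l :=
    fun hX => (Algebra.mem_inf.1 hX).1
  have hmem2 : ∀ {X : Module.End F ((ι → κ) → F)}, X ∈ CC F κ l ⊓ CC F κ j → X ∈ CC F κ j :=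
    fun hX => (Algebra.mem_inf.1 hX).2
  refine (setup H.two H.nd hT hyp hlj).dd_zero
    (I := {z : κ → F // polar q w z = 0}) (a := a) (b := b)
    (fun z => cjA (slE m (siegel q w z.1 hyp.left z.2)))
    (fun z => g1_of hml hmj (hM.siegel_mem H.two hG m hyp.left z.2))
    (fun z z' X => ?_) (fun z => ?_)
    (cjA (slE m (th q hyp) * slE j (th q hyp))) ?_ (fun X => ?_) (fun X hX z => ?_)
    (cjA (slE m μ⁻¹ * slE l μ)) (fun X hX => hX.cj (twist_mem h2 hG hM hμ hc hml)) (fun X hX => ?_) ?_ ?_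
    (fun X hX => cj_inj hX) hμ.ane (fun X hX hX1 hX2 => ?_)
    (o := sl m (om q w)) ?_ (cjA (slE m (siegel q w' z0 hyp.right hz0')))
    (g1_of hml hmj (hM.siegel_mem H.two hG m hyp.right hz0')) (fun X hX hX1 hX2 => ?_) h
  · -- commutation
    rw [cjA_apply, cjA_apply, cjA_apply, cjA_apply, cj_cj, cj_cj, ← map_mul, ← map_mul, siegel_comm]
  · -- nilpotency
    obtain ⟨n, hn⟩ := cj_sub_nil (k := slE m (siegel q w z.1 hyp.left z.2)) ⟨3, by
      rw [slE_toEnd, ← sl_one m, ← sl_sub, ← slA_apply, ← map_pow, siegel_sub_one_cube, map_zero]⟩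
    exact ⟨n, hn⟩
  · -- the involution
    exact
      { hP := fun _ hX => hX.cj (th_mem h2 hG hM hyp m j)
        hA := fun X hX => by
          rw [cjA_apply, cj_th_pair_self hyp (hmem2 hX)]
          exact Algebra.mem_inf.2 ⟨cj_slE_mem m _ (hmem1 hX), cj_slE_mem m _ (hmem2 hX)⟩
        hl := cj_th_pair_om h2 hyp m j l
        hj := cj_th_pair_om h2 hyp m j j }
  · have e : (slE m (th q hyp) * slE j (th q hyp)) * (slE m (th q hyp) * slE j (th q hyp)) =
        (1 : ((ι → κ) → F) ≃ₗ[F] ((ι → κ) → F)) := by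
      rw [mul_assoc, ← mul_assoc (slE j (th q hyp)), slE_comm (Ne.symm hmj), mul_assoc, ← mul_assoc, ← map_mul,
        ← map_mul, th_mul, map_one, map_one, one_mul]
    rw [cjA_apply, cjA_apply, cj_cj, e, one_cj]
  · -- the involution normalises the Siegel group
    have hO := th_mem_O h2 hyp
    have hz : polar q w (th q hyp z.1) = 0 := by
      have := polar_map hO w z.1
      rw [th_w] at this
      rw [this]
      exact z.2
    have hX' := hX ⟨th q hyp z.1, hz⟩
    rw [cjA_apply] at hX' ⊢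
    have e : slE m (siegel q w z.1 hyp.left z.2) * (slE m (th q hyp) * slE j (th q hyp)) =
        (slE m (th q hyp) * slE j (th q hyp)) * slE m (siegel q w (th q hyp z.1) hyp.left hz) := by
      have e1 : th q hyp * siegel q w (th q hyp z.1) hyp.left hz * (th q hyp)⁻¹ =
          siegel q w z.1 hyp.left z.2 := by
        have h5 : th q hyp (th q hyp z.1) = z.1 := (th q hyp).symm_apply_apply z.1
        rw [siegel_conj hO hyp.left hz (by rw [th_w]; exact hyp.left) (by rw [th_w, h5]; exact z.2)]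
        ext v
        rw [siegel_apply, siegel_apply, th_w, h5]
      rw [← e1, map_mul, map_mul, map_inv]
      rw [mul_assoc (slE m (th q hyp)) (slE j (th q hyp)), slE_comm (Ne.symm hmj) (th q hyp)
        (siegel q w (th q hyp z.1) hyp.left hz)]
      group
    rw [cjA_apply, cj_cj, e, ← cj_cj, hX']
  · -- the twist preserves `A`
    rw [cjA_apply, ← cj_cj]
    exact Algebra.mem_inf.2 ⟨cj_slE_mem m _ (cj_slE_mem l _ (hmem1 hX)),
      cj_slE_mem m _ (cj_slE_mem l _ (hmem2 hX))⟩
  · rw [cjA_apply, ← cj_cj, cj_slE_sl, cj_om_sim (neg_ne_zero.2 one_ne_zero) hμ.sim, hμ.fw, inv_neg, inv_one,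
      sl_smul, cj_smul', cj_slE_sl_ne hml]
    exact neg_one_smul_end _
  · rw [cjA_apply, ← cj_cj, cj_slE_sl_ne hlj, cj_slE_sl_ne hmj]
  · -- odd
    have e1 : ∀ Y ∈ CC F κ l, cjA (slE m μ⁻¹ * slE l μ) Y = cj (slE m μ⁻¹) Y := by
      intro Y hY
      rw [cjA_apply, ← cj_cj, cj_slE_self _ hY]
    rw [e1 X (hmem1 hX), e1 _ (cj_slE_mem m _ (hmem1 hX))]
    refine odd_rel h2 hyp hd hμ (hNC X hX1) ?_
    rw [cjA_apply, cj_th_pair_self hyp (hmem2 hX)] at hX2
    exact anti_aux (slE_th_toEnd hyp m) h2 ((cj_eq_iff _ _ _).1 hX2)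
  · -- `τ o = - o`
    rw [cjA_apply, ← cj_cj, cj_slE_sl_ne (Ne.symm hml), cj_slE_sl,
      cj_om_sim (neg_ne_zero.2 one_ne_zero) hμ.inv_sim, hμ.inv_w, inv_neg, inv_one, sl_smul]
    exact neg_one_smul_end _
  · -- even
    rw [cjA_apply, cj_th_pair_self hyp (hmem2 hX)] at hX2
    have hpp := comm_aux (slE_th_toEnd hyp m) h2 ((cj_eq_iff _ _ _).1 hX2)
    obtain ⟨B, hB, C, hC, rfl⟩ := exists_even h2 H.nd hyp hd (hNC X hX1) hpp
    obtain ⟨hBl, hCl⟩ := CC_decomp hyp hB hC (hmem1 hX) (Ne.symm hml)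
    refine ⟨B, C, rfl, ?_, ?_, ?_, ?_, ?_⟩
    · rw [cjA_apply, ← cj_cj, cj_slE_self _ hBl, cj_slE_self _ hB]
    · rw [cjA_apply, ← cj_cj, cj_slE_self _ hCl, cj_slE_self _ hC]
    · exact cj_slE_self _ hB
    · exact cj_slE_self _ hC
    · intro h0
      have hO := siegel_mem_O (Q := q) hyp.right hz0'
      rw [cjA_apply, cj_slE_sl, cj_om hO, ← sl_sub] at h0
      refine CC_eq_zero hC ?_ h0
      intro h3
      have h4 := LinearMap.congr_fun h3 w
      rw [LinearMap.sub_apply, om_apply, om_apply, hyp.polar_left, zero_smul, zero_sub, LinearMap.zero_apply,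
        neg_eq_zero] at h4
      have h5 : siegel q w' z0 hyp.right hz0' w ≠ 0 := fun h =>
        hyp.left_ne ((map_eq_zero_iff _ (siegel q w' z0 hyp.right hz0').injective).1 h)
      have h6 := (smul_eq_zero.1 h4).resolve_right h5
      rw [siegel_apply, polar_sub_left, polar_sub_left, polar_add_left, polar_smul_left, polar_smul_left,
        polar_smul_left, hyp.pair', hyp.polar_left, polar_comm q z0 w, hz0] at h6
      simp at h6
      exact hzn h6

/-- **The main lemma.** -/
theorem main_zero [Finite F] (H : Hyp7 q) (hG : Good (QT q ι)) (hM : Over q M) (hT : Thin q M) (hyp : Hyp q w w')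
    {μ : (κ → F) ≃ₗ[F] (κ → F)} {a b : ℤ} (hμ : Tw q w w' μ a b) (hc : 3 ≤ Fintype.card ι) {l j : ι} (hlj : l ≠ j)
    {S T : Module.End F ((ι → κ) → F)} (hT1 : T ∈ CC F κ j) (hS : S ∈ CC F κ l) (hS' : S ∈ CC F κ j)
    (h : IM M ((1 + T * sl j (om q w)) * (1 + S * sl l (om q w)))) : S = 0 := by
  have h2 := H.two
  have hd := hd_of H hyp
  -- elements of `M` which fix everything but `T`
  have step : ∀ k ∈ M, cj k (sl j (om q w)) = sl j (om q w) → cj k (sl l (om q w)) = sl l (om q w) →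
      cj k S = S → cj k T ∈ CC F κ j → cj k T = T := by
    intro k hk hj hl hkS hkT
    have h1 := h.cj hk
    rw [cj_mul', cj_add', cj_add', cj_one', cj_mul', cj_mul', hj, hl, hkS] at h1
    have h3 := b_aux (P := IM M) (fun _ _ => IM.mul) (fun _ _ => IM.inv) (sl_om_sq hyp.left j)
      (sl_om_sq hyp.left l) (mem_CC.1 hT1 _) (mem_CC.1 hS _) h h1
    exact sub_eq_zero.1 (thin_end h2 H.nd hT hyp (sub_mem hkT hT1) h3)
  have hNC : NC q w l T := NC.of_siegel h2 hyp.left fun z hz => by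
    refine step _ (hM.siegel_mem h2 hG l hyp.left hz) (cj_slE_sl_ne hlj _ _)
      (cj_om_fix l (siegel_mem_O hyp.left hz) ?_) (cj_slE_self _ hS) (cj_slE_mem l _ hT1)
    rw [siegel_apply, hyp.polar_left, polar_comm q z w, hz]
    simp
  have hth : cj (slE l (th q hyp)) T = T := by
    have h1 := step _ (th_mem h2 hG hM hyp l j) (cj_th_pair_om h2 hyp l j j) (cj_th_pair_om h2 hyp l j l)
      (by rw [cj_th_pair_self hyp hS', cj_slE_self _ hS])
      (by rw [cj_th_pair_self hyp hT1]; exact cj_slE_mem l _ hT1)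
    rwa [cj_th_pair_self hyp hT1] at h1
  have hpp := comm_aux (slE_th_toEnd hyp l) h2 ((cj_eq_iff _ _ _).1 hth)
  obtain ⟨T0, hT0, T1, hT1', rfl⟩ := exists_even h2 H.nd hyp hd hNC hpp
  obtain ⟨hT0j, hT1j⟩ := CC_decomp hyp hT0 hT1' hT1 (Ne.symm hlj)
  have hn : (-1 : F) ≠ 0 := neg_ne_zero.2 one_ne_zero
  refine (main_dd H hG hM hT hyp hμ hc hlj ((setup H.two H.nd hT hyp hlj).of_b (cjA (slE l μ⁻¹ * slE j μ))
    (fun X hX => hX.cj (twist_mem h2 hG hM hμ hc hlj)) ?_ ?_ (Algebra.mem_inf.2 ⟨hT0, hT0j⟩)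
    (Algebra.mem_inf.2 ⟨hT1', hT1j⟩) (Algebra.mem_inf.2 ⟨hS, hS'⟩) ?_ ?_ ?_ h)).1
  · rw [cjA_apply, ← cj_cj, cj_slE_sl_ne (Ne.symm hlj), cj_slE_sl, cj_om_sim hn hμ.inv_sim, hμ.inv_w, inv_neg,
      inv_one, sl_smul]
    exact neg_one_smul_end _
  · rw [cjA_apply, ← cj_cj, cj_slE_sl, cj_om_sim hn hμ.sim, hμ.fw, inv_neg, inv_one, sl_smul, cj_smul',
      cj_slE_sl_ne hlj]
    exact neg_one_smul_end _
  · rw [cjA_apply, ← cj_cj, cj_slE_self _ hT0j, cj_slE_self _ hT0]
  · rw [cjA_apply, ← cj_cj, cj_slE_self _ hT1j, cj_slE_self _ hT1']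
  · rw [cjA_apply, ← cj_cj, cj_slE_self _ hS', cj_slE_self _ hS]

end Cfsg.Agent.H889.C7O
end

-- part: H889/C7O/Mono
section
/-!
# Elements carrying slots to slots are monomial (task 1882)

* `isMono_of_carries` : an element which carries every slot to a slot is monomial;
* `isMono_rU` : `α ⊗ 1` is monomial if `α` is;
* `isMono_of_unique` : everything is monomial if there is one slot.
-/

set_option autoImplicit false
set_option linter.unusedSectionVars false

namespace Cfsg.Agent.H889.C7O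

open Cfsg.Agent.H883
open QuadraticMap hiding proj
open Cfsg.Agent.LieClassical.OrthCore Cfsg.Agent.LieClassical.OrthTrans
open Cfsg.Agent.H882.Ten Cfsg.Agent.LieClassical.OrthFinite
open Cfsg.Agent.H883.C7

variable {F : Type*} [Field F] {κ : Type*} [Fintype κ] [DecidableEq κ] {ι : Type*} [Fintype ι] [DecidableEq ι]
  {q : QuadraticForm F (κ → F)}

theorem isMono_rU (i : ι) {α : (({l // l ≠ i} → κ) → F) ≃ₗ[F] (({l // l ≠ i} → κ) → F)} (hα : IsMono α) :
    IsMono (rU (isTen F κ i) α) := by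
  obtain ⟨f, σ, rfl⟩ := hα
  refine ⟨ins i f 1, Equiv.Perm.ofSubtype σ, ?_⟩
  rw [map_mul]
  congr 1
  · exact tm_opE i f 1
  · refine tp_extE fun x => ?_
    conv_lhs => rw [tp_eq_ten i]
    rw [rU_apply, pe_tp, pe_tp, ten_tp, ← map_inv]
    congr 1
    funext n
    by_cases hn : n = i
    · subst hn
      rw [ins_same, Equiv.Perm.ofSubtype_apply_of_not_mem]
      simp
    · rw [ins_ne _ _ _ hn]
      have := Equiv.Perm.ofSubtype_apply_coe σ⁻¹ ⟨n, hn⟩
      exact congrArg x this.symm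

theorem isMono_of_unique [Unique ι] (α : ((ι → κ) → F) ≃ₗ[F] ((ι → κ) → F)) : IsMono α := by
  let e : (κ → F) ≃ₗ[F] ((ι → κ) → F) := LinearEquiv.funCongrLeft F F (Equiv.funUnique ι κ)
  have he : ∀ x : ι → (κ → F), C7.tp x = e (x default) := by
    intro x
    funext a
    rw [C7.tp_apply, Fintype.prod_unique]
    rfl
  refine ⟨fun _ => e.trans (α.trans e.symm), 1, ?_⟩
  refine tp_extE fun x => ?_
  rw [map_one, mul_one, opE_tp, he, he]
  exact (e.apply_symm_apply _).symm

theorem pe_sl (σ : Equiv.Perm ι) (i : ι) (f : Module.End F (κ → F)) (v : (ι → κ) → F) :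
    pe σ (sl i f v) = sl (σ i) f (pe σ v) := by
  have : ((pe σ : ((ι → κ) → F) ≃ₗ[F] ((ι → κ) → F)) : Module.End F ((ι → κ) → F)) ∘ₗ sl i f =
      sl (σ i) f ∘ₗ ((pe σ : ((ι → κ) → F) ≃ₗ[F] ((ι → κ) → F)) : Module.End F ((ι → κ) → F)) := tp_ext fun x => by
    rw [LinearMap.comp_apply, LinearMap.comp_apply, sl_tp, LinearEquiv.coe_coe, pe_tp, pe_tp, sl_tp]
    congr 1
    funext j
    by_cases hj : j = σ i
    · subst hj
      have : σ⁻¹ (σ i) = i := σ.symm_apply_apply i
      rw [this, Function.update_self, Function.update_self]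
    · rw [Function.update_of_ne hj, Function.update_of_ne]
      intro h
      apply hj
      rw [← h]
      exact (σ.apply_symm_apply j).symm
  exact LinearMap.congr_fun this v

theorem opE_sl (T : ι → ((κ → F) ≃ₗ[F] (κ → F))) (i : ι) (f : Module.End F (κ → F)) (v : (ι → κ) → F) :
    opE T (sl i f v) = sl i (cj (T i) f) (opE T v) := by
  have : ((opE T : ((ι → κ) → F) ≃ₗ[F] ((ι → κ) → F)) : Module.End F ((ι → κ) → F)) ∘ₗ sl i f =
      sl i (cj (T i) f) ∘ₗ ((opE T : ((ι → κ) → F) ≃ₗ[F] ((ι → κ) → F)) : Module.End F ((ι → κ) → F)) :=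
    tp_ext fun x => by
      rw [LinearMap.comp_apply, LinearMap.comp_apply, sl_tp, LinearEquiv.coe_coe, opE_tp, opE_tp, sl_tp]
      congr 1
      funext j
      by_cases hj : j = i
      · subst hj
        rw [Function.update_self, Function.update_self, cj_apply]
        have : (T j)⁻¹ (T j (x j)) = x j := LinearEquiv.symm_apply_apply (T j) _
        rw [this]
      · rw [Function.update_of_ne hj, Function.update_of_ne hj]
  exact LinearMap.congr_fun this v

/-- An element normalising every slot algebra is a tensor product. -/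
theorem exists_opE [Nonempty ι] (h2 : (2 : F) ≠ 0) (hq : Nondeg q) (hd : 3 ≤ Fintype.card κ) {x : κ → F}
    (hx : q x = 0) (hx0 : x ≠ 0) {h : ((ι → κ) → F) ≃ₗ[F] ((ι → κ) → F)} (hh : ∀ i, Carries h i i) :
    ∃ T : ι → ((κ → F) ≃ₗ[F] (κ → F)), h = opE T := by
  classical
  choose φ hφ using hh
  have hinj : ∀ (i : ι) (f f' : Module.End F (κ → F)), sl i f = sl i f' → f = f' := fun i f f' h => sl_inj hx0 h
  have key : ∀ (i : ι) (f : Module.End F (κ → F)) (g : Module.End F (κ → F)),
      (∀ v, h (sl i f v) = sl i g (h v)) → φ i f = g := by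
    intro i f g hg
    refine hinj i _ _ (LinearMap.ext fun v => ?_)
    obtain ⟨v, rfl⟩ := h.surjective v
    rw [← hφ, hg]
  let Φ : ∀ _ : ι, Module.End F (κ → F) →ₐ[F] Module.End F (κ → F) := fun i =>
    AlgHom.ofLinearMap
      { toFun := φ i
        map_add' := fun f g => key i _ _ fun v => by
          rw [sl_add, sl_add, LinearMap.add_apply, map_add, hφ, hφ, LinearMap.add_apply]
        map_smul' := fun c f => key i _ _ fun v => by
          rw [sl_smul, LinearMap.smul_apply, map_smul, hφ, RingHom.id_apply, sl_smul, LinearMap.smul_apply] }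
      (key i _ _ fun v => by rw [sl_one, Module.End.one_apply, Module.End.one_apply])
      (fun f g => key i _ _ fun v => by
        rw [sl_mul, sl_mul, Module.End.mul_apply, Module.End.mul_apply, hφ, hφ]
        rfl)
  have hΦ : ∀ i, Function.Bijective (Φ i) := by
    intro i
    have h1 : Function.Injective (Φ i).toLinearMap := by
      intro f g hfg
      refine hinj i _ _ (LinearMap.ext fun v => h.injective ?_)
      rw [hφ, hφ]
      have : φ i f = φ i g := hfg
      rw [this]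
    exact ⟨h1, LinearMap.surjective_of_injective h1⟩
  have hT : ∀ i, ∃ T : (κ → F) ≃ₗ[F] (κ → F), ∀ f, φ i f = cj T f := by
    intro i
    obtain ⟨T, hT⟩ := (AlgEquiv.ofBijective (Φ i) (hΦ i)).eq_linearEquivConjAlgEquiv
    refine ⟨T, fun f => ?_⟩
    exact AlgEquiv.congr_fun hT f
  choose T hT using hT
  -- `k = (opE T)⁻¹ h` is scalar
  have hk : ∀ (i : ι) (f : Module.End F (κ → F)) v, (opE T)⁻¹ (h (sl i f v)) = sl i f ((opE T)⁻¹ (h v)) := by
    intro i f v
    have h1 : ∀ v, opE T ((opE T)⁻¹ v) = v := fun v => LinearEquiv.apply_symm_apply (opE T) v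
    apply (opE T).injective
    rw [h1, opE_sl, h1, hφ, hT]
  obtain ⟨c, hc⟩ := scalar_of_comm (ι := ι) h2 hq hd hx hx0
    (T := (((opE T)⁻¹ * h : ((ι → κ) → F) ≃ₗ[F] ((ι → κ) → F)) : Module.End F ((ι → κ) → F)))
    (fun i u z hu hz v => by
      rw [slE_coe, slE_coe]
      exact hk i _ v)
  have hc0 : c ≠ 0 := by
    rintro rfl
    have h1 := hc (C7.tp fun _ : ι => x)
    rw [zero_smul, LinearEquiv.coe_coe] at h1
    exact tp_ne_zero (fun _ : ι => hx0) ((map_eq_zero_iff _ (LinearEquiv.injective _)).1 h1)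
  have hh2 : ∀ v, h v = c • opE T v := by
    intro v
    have h1 := congrArg (opE T) (hc v)
    rw [map_smul] at h1
    rw [← h1]
    exact (LinearEquiv.apply_symm_apply (opE T) (h v)).symm
  obtain ⟨i0⟩ := ‹Nonempty ι›
  let d : ι → F := Function.update (fun _ => 1) i0 c
  have hd0 : ∀ i, d i ≠ 0 := by
    intro i
    by_cases hi : i = i0
    · subst hi
      rw [show d i = c from Function.update_self _ _ _]
      exact hc0
    · rw [show d i = 1 from Function.update_of_ne hi _ _]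
      exact one_ne_zero
  have hprod : ∏ i, d i = c := by
    rw [Finset.prod_update_of_mem (Finset.mem_univ i0)]
    simp
  refine ⟨fun i => (LinearEquiv.smulOfNeZero F (κ → F) (d i) (hd0 i)) * T i, tp_extE fun y => ?_⟩
  rw [hh2, opE_tp, opE_tp]
  have : (fun i => ((LinearEquiv.smulOfNeZero F (κ → F) (d i) (hd0 i)) * T i) (y i)) =
      fun i => d i • (T i (y i)) := rfl
  rw [this, tp_smul_all (fun i => T i (y i)) d, hprod]

/-- **An element which carries every slot to a slot is monomial.** -/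
theorem isMono_of_carries [Nonempty ι] (h2 : (2 : F) ≠ 0) (hq : Nondeg q) (hd : 3 ≤ Fintype.card κ) {x : κ → F}
    (hx : q x = 0) (hx0 : x ≠ 0) {g : ((ι → κ) → F) ≃ₗ[F] ((ι → κ) → F)} (hg : ∀ i, ∃ j, Carries g i j) :
    IsMono g := by
  classical
  choose σ hσ using hg
  have hinj : Function.Injective σ := fun i i' h =>
    Cfsg.Agent.H829.C7.carries_inj (by omega) (hσ i) (by rw [h]; exact hσ i')
  let σ' : Equiv.Perm ι := Equiv.ofBijective σ (Finite.injective_iff_bijective.1 hinj)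
  have hh : ∀ i, Carries ((pe σ')⁻¹ * g) i i := by
    intro i f
    obtain ⟨f', hf'⟩ := hσ i f
    refine ⟨f', fun v => ?_⟩
    show (pe σ')⁻¹ (g (sl i f v)) = sl i f' ((pe σ')⁻¹ (g v))
    have h1 : ∀ v, pe (F := F) (κ := κ) σ' ((pe σ')⁻¹ v) = v := fun v => LinearEquiv.apply_symm_apply (pe σ') v
    apply (pe (F := F) (κ := κ) σ').injective
    rw [h1, pe_sl, h1, hf']
    rfl
  obtain ⟨T, hT⟩ := exists_opE h2 hq hd hx hx0 hh
  have h3 : g = pe σ' * opE T := by rw [← hT]; group
  refine ⟨fun i => T (σ'⁻¹ i), σ', ?_⟩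
  rw [← pe_conj_opE, h3]
  group

end Cfsg.Agent.H889.C7O
end

-- part: H889/C7O/ZExc
section
/-!
# Part (ZE): `ZP` over the exceptional fields (task 1882)

`zp_exc` : over the exceptional fields `(k, q) = (3, 5), (4, 3), (4, 5)` the elements `b = α ⊗ 1 + ζ ⊗ ω_w` of a thin
overgroup with `α ∈ Ω (A_j)` have `ζ = 0`, given the main theorem for one slot less.
-/

set_option autoImplicit false
set_option linter.unusedSectionVars false

namespace Cfsg.Agent.H889.C7O

open QuadraticMap hiding proj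
open Cfsg.Agent.LieClassical.OrthCore Cfsg.Agent.LieClassical.OrthTrans
open Cfsg.Agent.H882.Ten Cfsg.Agent.LieClassical.OrthFinite
open Cfsg.Agent.H883.C7

variable {F : Type*} [Field F] {κ : Type*} [Fintype κ] [DecidableEq κ] {ι : Type*} [Fintype ι] [DecidableEq ι]
  {q : QuadraticForm F (κ → F)} {M : Subgroup (((ι → κ) → F) ≃ₗ[F] ((ι → κ) → F))}

/-- `IsB` in terms of operators. -/
theorem isB_end {j : ι} {w : κ → F} {b : ((ι → κ) → F) ≃ₗ[F] ((ι → κ) → F)}
    {α : (({l // l ≠ j} → κ) → F) ≃ₗ[F] (({l // l ≠ j} → κ) → F)} {ζ : Module.End F (({l // l ≠ j} → κ) → F)}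
    (h : IsB (ten F κ j) q w b α ζ) :
    (b : Module.End F ((ι → κ) → F)) =
      (1 + li j (ζ * ((α⁻¹ : (({l // l ≠ j} → κ) → F) ≃ₗ[F] (({l // l ≠ j} → κ) → F)) :
        Module.End F (({l // l ≠ j} → κ) → F))) * sl j (om q w)) *
        li j (α : Module.End F (({l // l ≠ j} → κ) → F)) := by
  refine ext_t (isTen F κ j) fun a z => ?_
  have h1 : α⁻¹ (α a) = a := LinearEquiv.symm_apply_apply α a
  rw [LinearEquiv.coe_coe, h, Module.End.mul_apply, li_ten, LinearMap.add_apply, Module.End.one_apply,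
    Module.End.mul_apply, sl_ten, om_apply, map_smul, map_smul, li_ten, Module.End.mul_apply, LinearEquiv.coe_coe,
    LinearEquiv.coe_coe, h1]

theorem li_rU (j : ι) (α : (({l // l ≠ j} → κ) → F) ≃ₗ[F] (({l // l ≠ j} → κ) → F)) :
    ((rU (isTen F κ j) α : ((ι → κ) → F) ≃ₗ[F] ((ι → κ) → F)) : Module.End F ((ι → κ) → F)) =
      li j (α : Module.End F (({l // l ≠ j} → κ) → F)) :=
  ext_t (isTen F κ j) fun a z => by rw [LinearEquiv.coe_coe, rU_apply, li_ten]; rfl

/-- If `α ⊗ 1` is in `M` then `ζ = 0`. -/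
theorem zeta_zero (h2 : (2 : F) ≠ 0) (hq : Nondeg q) (hT : Thin q M) {w w' : κ → F} (hyp : Hyp q w w') {j : ι}
    {b : ((ι → κ) → F) ≃ₗ[F] ((ι → κ) → F)} (hb : b ∈ M)
    {α : (({l // l ≠ j} → κ) → F) ≃ₗ[F] (({l // l ≠ j} → κ) → F)} {ζ : Module.End F (({l // l ≠ j} → κ) → F)}
    (h : IsB (ten F κ j) q w b α ζ) (hα : rU (isTen F κ j) α ∈ M) : ζ = 0 := by
  have h1 : IM M (1 + li j (ζ * ((α⁻¹ : (({l // l ≠ j} → κ) → F) ≃ₗ[F] (({l // l ≠ j} → κ) → F)) :
        Module.End F (({l // l ≠ j} → κ) → F))) * sl j (om q w)) := by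
    refine ⟨b * (rU (isTen F κ j) α)⁻¹, M.mul_mem hb (M.inv_mem hα), ?_⟩
    rw [coe_mul, isB_end h, ← li_rU, mul_assoc, coe_mul_inv, mul_one]
  have h3 := li_inj hyp.left_ne (thin_end h2 hq hT hyp (li_mem j _) h1)
  refine LinearMap.ext fun a => ?_
  have h4 := LinearMap.congr_fun h3 (α a)
  have h5 : α⁻¹ (α a) = a := LinearEquiv.symm_apply_apply α a
  rw [Module.End.mul_apply, LinearEquiv.coe_coe, h5] at h4
  exact h4

theorem om_smul (c : F) (w : κ → F) : om q (c • w) = (c * c) • om q w := by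
  refine LinearMap.ext fun v => ?_
  rw [om_apply, LinearMap.smul_apply, om_apply, polar_smul_left, smul_eq_mul, smul_smul, smul_smul]
  congr 1
  ring

/-- The main lemma for two singular vectors. -/
theorem main_zero' [Finite F] (H : Hyp7 q) (hG : Good (QT q ι)) (hM : Over q M) (hT : Thin q M)
    (hexc : (Fintype.card κ = 3 ∧ Nat.card F = 5) ∨ (Fintype.card κ = 4 ∧ (Nat.card F = 3 ∨ Nat.card F = 5)))
    (hc : 3 ≤ Fintype.card ι) {l j : ι} (hlj : l ≠ j) {w u : κ → F} (hw : q w = 0) (hw0 : w ≠ 0) (hu : q u = 0)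
    (hu0 : u ≠ 0) {S T : Module.End F ((ι → κ) → F)} (hT1 : T ∈ CC F κ j) (hS : S ∈ CC F κ l) (hS' : S ∈ CC F κ j)
    (h : IM M ((1 + T * sl j (om q w)) * (1 + S * sl l (om q u)))) : S = 0 := by
  obtain ⟨w', hyp⟩ := LieClassical.OrthTrans.exists_hyp H.nd hw hw0
  obtain ⟨μ, a, b, hμ⟩ := exists_tw H hexc hyp
  obtain ⟨e, he, c, hc0, hec⟩ := exists_line H.nd H.three hu0 hu hw0 hw
  have h1 := h.cj (hM.slE_mem H.two hG l he)
  rw [cj_mul', cj_add', cj_add', cj_one', cj_mul', cj_mul', cj_slE_sl_ne hlj, cj_slE_self _ hS, cj_slE_sl,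
    cj_om (E_le_O he), hec, om_smul, sl_smul, mul_smul_comm, ← smul_mul_assoc] at h1
  have h3 := main_zero H hG hM hT hyp hμ hc hlj (cj_slE_mem l e hT1) ((CC F κ l).smul_mem hS (c * c))
    ((CC F κ j).smul_mem hS' (c * c)) h1
  exact (smul_eq_zero.1 h3).resolve_left (mul_ne_zero hc0 hc0)

/-- The group of the first components. -/
def Cp (h2 : (2 : F) ≠ 0) (hq : Nondeg q) (M : Subgroup (((ι → κ) → F) ≃ₗ[F] ((ι → κ) → F))) (j : ι) {w : κ → F}
    (hw : q w = 0) : Subgroup ((({l // l ≠ j} → κ) → F) ≃ₗ[F] (({l // l ≠ j} → κ) → F)) where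
  carrier := {α | α ∈ ⁅O (QT q {l // l ≠ j}), O (QT q {l // l ≠ j})⁆ ∧ ∃ b ∈ M, ∃ ζ, IsB (ten F κ j) q w b α ζ}
  mul_mem' := by
    rintro α α' ⟨hα, b, hb, ζ, h⟩ ⟨hα', b', hb', ζ', h'⟩
    exact ⟨Subgroup.mul_mem _ hα hα', b * b', M.mul_mem hb hb', _, isB_mul hw h h'⟩
  one_mem' := ⟨Subgroup.one_mem _, 1, M.one_mem, 0, isB_one⟩
  inv_mem' := by
    rintro α ⟨hα, b, hb, ζ, h⟩
    exact ⟨Subgroup.inv_mem _ hα, b⁻¹, M.inv_mem hb, _, isB_inv (tst (ι := ι) h2 hq j) hw h⟩

/-- monomial elements of `E (A_j)` are in `M` -/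
theorem rU_mem [Finite F] (H : Hyp7 q) (hG : Good (QT q ι)) (hM : Over q M) {j : ι}
    {α : (({l // l ≠ j} → κ) → F) ≃ₗ[F] (({l // l ≠ j} → κ) → F)}
    (hα : α ∈ ⁅O (QT q {l // l ≠ j}), O (QT q {l // l ≠ j})⁆) (hm : IsMono α) : rU (isTen F κ j) α ∈ M :=
  hM.2 _ ((tst (ι := ι) H.two H.nd j).rU_mem_E_of_comm hG hα) (isMono_rU j hm)

/-- **Part (ZE).** -/
theorem zp_exc [Finite F] {q : QuadraticForm F (κ → F)} (H : Hyp7 q) (ht : 2 ≤ Fintype.card ι)
    {M : Subgroup (((ι → κ) → F) ≃ₗ[F] ((ι → κ) → F))} (hM : Over q M) (hT : Thin q M)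
    (hexc : (Fintype.card κ = 3 ∧ Nat.card F = 5) ∨ (Fintype.card κ = 4 ∧ (Nat.card F = 3 ∨ Nat.card F = 5)))
    (IH : 3 ≤ Fintype.card ι → ∀ (j : ι)
      (M' : Subgroup ((({l // l ≠ j} → κ) → F) ≃ₗ[F] (({l // l ≠ j} → κ) → F))), Over q M' → Thin q M' →
      ∀ g ∈ M', ∀ i, ∃ j', Carries g i j') : ZP q M := by
  classical
  intro j w hw0 hw b hb α ζ hα h
  have hG := H.good ht
  obtain ⟨w', hyp⟩ := LieClassical.OrthTrans.exists_hyp H.nd hw hw0
  have hcard : Fintype.card {l // l ≠ j} = Fintype.card ι - 1 := by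
    rw [Fintype.card_subtype_compl, Fintype.card_subtype_eq]
  refine zeta_zero H.two H.nd hT hyp hb h (rU_mem H hG hM hα ?_)
  by_cases hc : Fintype.card ι = 2
  · -- one slot
    have h1 : Fintype.card {l // l ≠ j} = 1 := by omega
    obtain ⟨l0, hl0⟩ := Fintype.card_eq_one_iff.1 h1
    have : Unique {l // l ≠ j} := ⟨⟨l0⟩, hl0⟩
    have h3 := isMono_of_unique α
    convert h3
  · have hc3 : 3 ≤ Fintype.card ι := by omega
    have hG' : Good (QT q {l // l ≠ j}) := H.good (by omega)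
    have : Nonempty {l // l ≠ j} := Fintype.card_pos_iff.1 (by omega)
    refine isMono_of_carries H.two H.nd H.three hw hw0 (IH hc3 j (Cp H.two H.nd M j hw) ?_ ?_ α ⟨hα, b, hb, ζ, h⟩)
    · -- `Over`
      refine ⟨fun g hg => ?_, fun g hg hm => ?_⟩
      · rw [← hG'.commutator_eq_E]
        exact hg.1
      · rw [← hG'.commutator_eq_E] at hg
        refine ⟨hg, rU (isTen F κ j) g, rU_mem H hG hM hg hm, 0, fun a z => ?_⟩
        rw [rU_apply, LinearMap.zero_apply, map_zero, LinearMap.zero_apply, smul_zero, add_zero]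
    · -- `Thin`
      intro l u hu0 hu g hg hgt
      obtain ⟨hgE, b', hb', ζ', h'⟩ := hg
      have S := tst (ι := {l // l ≠ j}) H.two H.nd l
      obtain ⟨u', hypu⟩ := LieClassical.OrthTrans.exists_hyp H.nd hu hu0
      have hgO : g ∈ O (QT q {l // l ≠ j}) := by
        rw [hG'.commutator_eq_E] at hgE
        exact E_le_O hgE
      obtain ⟨δ, hδ⟩ := S.inZ_of_triv (X := O (QT q {l // l ≠ j})) le_rfl (nondeg_QT H.two H.nd) hypu hgO
        (fun a z hz => hgt _ fun a' => by rw [S.pol, polar_comm q z u, hz, mul_zero])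
      -- as operators
      have e1 : (g : Module.End F (({l // l ≠ j} → κ) → F)) = 1 + li l δ * sl l (om q u) := by
        refine ext_t (isTen F κ l) fun a z => ?_
        rw [LinearEquiv.coe_coe, hδ, LinearMap.add_apply, Module.End.one_apply, Module.End.mul_apply, sl_ten,
          om_apply, map_smul, map_smul, li_ten]
      have e2 : li j (g : Module.End F (({l // l ≠ j} → κ) → F)) =
          1 + li j (li l δ) * sl (l : ι) (om q u) := by
        rw [e1, map_add, map_one, map_mul, li_sl]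
      have h1 : IM M ((1 + li j (ζ' * ((g⁻¹ : (({l // l ≠ j} → κ) → F) ≃ₗ[F] (({l // l ≠ j} → κ) → F)) :
          Module.End F (({l // l ≠ j} → κ) → F))) * sl j (om q w)) *
          (1 + li j (li l δ) * sl (l : ι) (om q u))) := by
        refine ⟨b', hb', ?_⟩
        rw [isB_end h', e2]
      have hS : li j (li l δ) ∈ CC F κ (l : ι) := by
        refine mem_CC.2 fun f => ?_
        rw [← li_sl, ← map_mul, ← map_mul, mem_CC.1 (li_mem l δ) f]
      have h3 := main_zero' H hG hM hT hexc hc3 l.2 hw hw0 hu hu0 (li_mem j _) hS (li_mem j _) h1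
      have h4 := li_inj hw0 h3
      rw [h4, zero_mul, add_zero] at e1
      exact LinearEquiv.ext fun v => LinearMap.congr_fun e1 v

end Cfsg.Agent.H889.C7O
end
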